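import Mathlib

/-!
Linear groups of degree ten over the field of two elements with a point orbit of length 561, 792 or
1023 and stabiliser of order 20160, and doubly transitive groups of degree 21 with a large Sylow
2-subgroup.
-/

set_option autoImplicit false

namespace Cfsg.Agent.U62Plane.Numeric

section free

variable {B A : Type*} [Group B] [Finite B] [CommGroup A] [Finite A] [MulDistribMulAction B A]

/-- The fixed elements. -/
def fix (A : Type*) [CommGroup A] [MulDistribMulAction B A] (b : B) : Subgroup A where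
  carrier := {v | b • v = v}
  one_mem' := smul_one b
  mul_mem' := fun {u v} hu hv => by
    show b • (u * v) = u * v
    rw [smul_mul', show b • u = u from hu, show b • v = v from hv]
  inv_mem' := fun {u} hu => by
    show b • u⁻¹ = u⁻¹
    rw [smul_inv', show b • u = u from hu]

variable (hA : Nat.card A = 1024) [FaithfulSMul B A]
include hA

theorem small_or_all {x : B} (hx : orderOf x = 11) (F : Subgroup A) (hF : ∀ v ∈ F, x • v ∈ F)
    (h1 : ∀ v ∈ F, x • v = v → v = 1) : F = ⊥ ∨ F = ⊤ := by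
  haveI : Fact (Nat.Prime 11) := ⟨by norm_num⟩
  have hxF : ∀ g ∈ Subgroup.zpowers x, ∀ v ∈ F, g • v ∈ F := by
    intro g hg
    rw [← mem_powers_iff_mem_zpowers] at hg
    obtain ⟨k, rfl⟩ := hg
    intro v hv
    induction k with
    | zero => simpa using hv
    | succ k ih =>
      show x ^ (k + 1) • v ∈ F
      rw [pow_succ', mul_smul]
      exact hF _ ih
  letI : MulAction ↥(Subgroup.zpowers x) ↥F :=
    { smul := fun g v => ⟨(g : B) • (v : A), hxF g g.2 v v.2⟩
      one_smul := fun v => Subtype.ext (one_smul B (v : A))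
      mul_smul := fun g h v => Subtype.ext (mul_smul (g : B) (h : B) (v : A)) }
  have hp : IsPGroup 11 ↥(Subgroup.zpowers x) :=
    IsPGroup.of_card (n := 1) (by rw [Nat.card_zpowers, hx, pow_one])
  have hmod := hp.card_modEq_card_fixedPoints ↥F
  have hfix : Nat.card (MulAction.fixedPoints ↥(Subgroup.zpowers x) ↥F) = 1 := by
    rw [Nat.card_eq_one_iff_unique]
    refine ⟨⟨fun a b => ?_⟩, ⟨⟨1, fun g => Subtype.ext (smul_one (g : B))⟩⟩⟩
    have key : ∀ c : MulAction.fixedPoints ↥(Subgroup.zpowers x) ↥F, ((c : ↥F) : A) = 1 := fun c =>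
      h1 _ c.1.2 (congrArg Subtype.val (c.2 ⟨x, Subgroup.mem_zpowers x⟩))
    exact Subtype.ext (Subtype.ext ((key a).trans (key b).symm))
  rw [hfix] at hmod
  have hdvd : Nat.card F ∣ 2 ^ 10 := by
    rw [show (2 : ℕ) ^ 10 = 1024 by norm_num, ← hA]
    exact Subgroup.card_subgroup_dvd_card F
  obtain ⟨j, hj, he⟩ := (Nat.dvd_prime_pow Nat.prime_two).1 hdvd
  rw [he] at hmod
  have : j = 0 ∨ j = 10 := by
    interval_cases j <;> simp [Nat.ModEq] at hmod ⊢
  rcases this with rfl | rfl
  · exact Or.inl (Subgroup.card_eq_one.1 (by simpa using he))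
  · exact Or.inr (Subgroup.eq_top_of_card_eq F (by rw [he, hA]; norm_num))

theorem no_fix {x : B} (hx : orderOf x = 11) {v : A} (hv : x • v = v) : v = 1 := by
  haveI : Fact (Nat.Prime 11) := ⟨by norm_num⟩
  have hp : IsPGroup 11 ↥(Subgroup.zpowers x) :=
    IsPGroup.of_card (n := 1) (by rw [Nat.card_zpowers, hx, pow_one])
  have hmod := hp.card_modEq_card_fixedPoints A
  have hF : Nat.card (MulAction.fixedPoints ↥(Subgroup.zpowers x) A) = Nat.card (fix A x) := by
    refine Nat.card_congr (Equiv.subtypeEquiv (Equiv.refl A) fun u => ?_)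
    constructor
    · exact fun h => h ⟨x, Subgroup.mem_zpowers x⟩
    · rintro h ⟨g, hg⟩
      have : MulAction.stabilizer B u ≥ Subgroup.zpowers x := Subgroup.zpowers_le.2 h
      exact this hg
  rw [hF, hA] at hmod
  have hdvd : Nat.card (fix A x) ∣ 2 ^ 10 := by
    rw [show (2 : ℕ) ^ 10 = 1024 by norm_num, ← hA]
    exact Subgroup.card_subgroup_dvd_card _
  obtain ⟨j, hj, he⟩ := (Nat.dvd_prime_pow Nat.prime_two).1 hdvd
  rw [he] at hmod
  have : j = 0 ∨ j = 10 := by
    interval_cases j <;> simp [Nat.ModEq] at hmod ⊢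
  rcases this with rfl | rfl
  · have h0 : fix A x = ⊥ := Subgroup.card_eq_one.1 (by simpa using he)
    exact Subgroup.mem_bot.1 (h0 ▸ (hv : v ∈ fix A x))
  · exfalso
    have h0 : fix A x = ⊤ := Subgroup.eq_top_of_card_eq _ (by rw [he, hA]; norm_num)
    have : x = 1 := FaithfulSMul.eq_of_smul_eq_smul fun u : A => by
      rw [one_smul]; exact (h0 ▸ Subgroup.mem_top u : u ∈ fix A x)
    rw [this, orderOf_one] at hx
    norm_num at hx

theorem free {x c : B} (hx : orderOf x = 11) (hc : c * x = x * c) {v : A} (hv1 : v ≠ 1)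
    (hv : c • v = v) : c = 1 := by
  rcases small_or_all hA hx (fix A c) (fun u hu => by
      show c • x • u = x • u
      rw [← mul_smul, hc, mul_smul, show c • u = u from hu]) (fun u _ hu => no_fix hA hx hu) with h | h
  · exact absurd (Subgroup.mem_bot.1 (h ▸ (hv : v ∈ fix A c))) hv1
  · refine FaithfulSMul.eq_of_smul_eq_smul fun u : A => ?_
    rw [one_smul]
    exact (h ▸ Subgroup.mem_top u : u ∈ fix A c)

theorem card_centralizer_dvd {x : B} (hx : orderOf x = 11) :
    Nat.card (Subgroup.centralizer ({x} : Set B)) ∣ 1023 := by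
  classical
  set C := Subgroup.centralizer ({x} : Set B)
  letI : MulAction ↥C {v : A // v ≠ 1} :=
    { smul := fun c v => ⟨(c : B) • (v : A), fun h => v.2 (by
        rw [← inv_smul_smul (c : B) (v : A), h, smul_one])⟩
      one_smul := fun v => Subtype.ext (one_smul B (v : A))
      mul_smul := fun g h v => Subtype.ext (mul_smul (g : B) (h : B) (v : A)) }
  have hfree : ∀ v : {v : A // v ≠ 1}, MulAction.stabilizer ↥C v = ⊥ := by
    intro v
    rw [eq_bot_iff]
    intro c hc
    exact Subgroup.mem_bot.2 (Subtype.ext (free hA hx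
      (Subgroup.mem_centralizer_singleton_iff.1 c.2) v.2 (congrArg Subtype.val hc)))
  have hcard : Nat.card {v : A // v ≠ 1} = 1023 := by
    haveI := Fintype.ofFinite A
    rw [Nat.card_eq_fintype_card, Fintype.card_subtype_compl, Fintype.card_subtype_eq,
      ← Nat.card_eq_fintype_card, hA]
  rw [← hcard, Nat.card_congr (MulAction.selfEquivSigmaOrbits ↥C {v : A // v ≠ 1})]
  haveI := Fintype.ofFinite (MulAction.orbitRel.Quotient ↥C {v : A // v ≠ 1})
  rw [Nat.card_sigma]
  refine Finset.dvd_sum fun ω _ => ?_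
  have h := MulAction.index_stabilizer (G := ↥C) ω.out
  rw [hfree, Subgroup.index_bot] at h
  rw [h, Nat.card_coe_set_eq]

theorem eleven {n : ℕ} (hB : Nat.card B = n * 20160) (hn : n = 561 ∨ n = 792 ∨ n = 1023) :
    ∃ (P : Sylow 11 B) (x : B), orderOf x = 11 ∧ (P : Subgroup B) = Subgroup.zpowers x ∧
      Nat.card (Subgroup.centralizer ({x} : Set B)) =
        (if n = 561 then 11 else if n = 792 then 33 else 341) ∧
      Nat.card (Subgroup.normalizer (Subgroup.zpowers x : Set B)) =
        (if n = 561 then 11 else if n = 792 then 165 else 682) := by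
  classical
  haveI : Fact (Nat.Prime 11) := ⟨by norm_num⟩
  obtain ⟨P⟩ : Nonempty (Sylow 11 B) := inferInstance
  have h1 : 11 ∣ Nat.card B := by rw [hB]; rcases hn with rfl | rfl | rfl <;> norm_num
  have h2 : ¬ 11 ^ 2 ∣ Nat.card B := by rw [hB]; rcases hn with rfl | rfl | rfl <;> norm_num
  have hP : Nat.card P = 11 := by
    obtain ⟨k, hk⟩ := IsPGroup.iff_card.1 P.isPGroup'
    have hk1 : k ≤ 1 := by
      by_contra h
      exact h2 ((pow_dvd_pow 11 (Nat.succ_le_of_lt (not_le.1 h))).trans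
        (hk ▸ Subgroup.card_subgroup_dvd_card (P : Subgroup B)))
    have hk0 : k ≠ 0 := fun h => by
      have h3 := P.dvd_card_of_dvd_card h1
      rw [hk, h, pow_zero] at h3
      norm_num at h3
    rw [hk, show k = 1 by omega, pow_one]
  obtain ⟨x', hx'⟩ := exists_prime_orderOf_dvd_card' (G := ↥(P : Subgroup B)) 11 (by rw [hP])
  set x : B := (x' : B)
  have hx : orderOf x = 11 := by rw [← hx']; exact Subgroup.orderOf_coe x'
  have hPx : (P : Subgroup B) = Subgroup.zpowers x :=
    (Subgroup.eq_of_le_of_card_ge (Subgroup.zpowers_le.2 x'.2) (by rw [Nat.card_zpowers, hx, hP])).symm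
  set C := Subgroup.centralizer ({x} : Set B)
  set N := Subgroup.normalizer (Subgroup.zpowers x : Set B)
  have hC : C = Subgroup.centralizer (Subgroup.zpowers x : Set B) := by
    rw [Subgroup.zpowers_eq_closure, Subgroup.centralizer_closure]
  have hCdvd : Nat.card C ∣ 1023 := card_centralizer_dvd hA hx
  have hxC : 11 ∣ Nat.card C := by
    rw [← hx]
    exact C.orderOf_dvd_natCard (Subgroup.mem_centralizer_singleton_iff.2 rfl)
  have hCB : Nat.card C ∣ n * 20160 := hB ▸ C.card_subgroup_dvd_card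
  have hCN : C ≤ N := by rw [hC]; exact (Subgroup.centralizer_le_normalizer _)
  have hidx : (C.subgroupOf N).index ∣ 10 := by
    have h := Subgroup.normalizerMonoidHom_ker (Subgroup.zpowers x)
    rw [← hC] at h
    rw [← h, Subgroup.index_ker]
    have hc : Nat.card (MulAut ↥(Subgroup.zpowers x)) = 10 := by
      rw [Nat.card_congr (IsCyclic.mulAutMulEquiv ↥(Subgroup.zpowers x)).toEquiv, Nat.card_zpowers, hx,
        Nat.card_units, Nat.card_zmod]
    rw [← hc]
    exact Subgroup.card_subgroup_dvd_card _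
  have hN : Nat.card N = Nat.card C * (C.subgroupOf N).index := by
    rw [← (C.subgroupOf N).card_mul_index, Nat.card_congr (Subgroup.subgroupOfEquivOfLe hCN).toEquiv]
  have hsyl := card_sylow_modEq_one 11 B
  rw [Sylow.card_eq_index_normalizer P, show ((P : Set B)) = (Subgroup.zpowers x : Set B) by rw [← hPx]; rfl] at hsyl
  have hNB : Nat.card N * N.index = n * 20160 := hB ▸ N.card_mul_index
  refine ⟨P, x, hx, hPx, ?_⟩
  set c := Nat.card C
  set e := (C.subgroupOf N).index
  have hc4 : c ∈ ({11, 33, 341, 1023} : Finset ℕ) := by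
    have : c ∈ Nat.divisors 1023 := Nat.mem_divisors.2 ⟨hCdvd, by norm_num⟩
    rw [show Nat.divisors 1023 = {1, 3, 11, 31, 33, 93, 341, 1023} by decide +kernel] at this
    simp only [Finset.mem_insert, Finset.mem_singleton] at this ⊢
    omega
  have he4 : e ∈ Nat.divisors 10 := Nat.mem_divisors.2 ⟨hidx, by norm_num⟩
  rw [show Nat.divisors 10 = {1, 2, 5, 10} by decide +kernel] at he4
  have hidxval : (n * 20160 / (c * e)) % 11 = 1 ∧ (n * 20160) % (c * e) = 0 := by
    have hpos : 0 < c * e := by rw [← hN]; exact Nat.card_pos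
    rw [← hNB, hN, Nat.mul_div_cancel_left _ hpos, Nat.mul_mod_right]
    exact ⟨hsyl, rfl⟩
  show c = _ ∧ Nat.card N = _
  rw [hN]
  simp only [Finset.mem_insert, Finset.mem_singleton] at hc4 he4
  rcases hn with rfl | rfl | rfl <;> rcases hc4 with h | h | h | h <;>
    rcases he4 with h' | h' | h' | h' <;> simp [h, h'] at hidxval hCB ⊢

theorem not_561 (hB : Nat.card B = 561 * 20160) : False := by
  classical
  haveI : Fact (Nat.Prime 11) := ⟨by norm_num⟩
  haveI : Fact (Nat.Prime 17) := ⟨by norm_num⟩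
  obtain ⟨P, x, hx, hPx, hC, hN⟩ := eleven hA hB (Or.inl rfl)
  simp only [if_pos] at hC hN
  have hPN : Subgroup.normalizer ((P : Subgroup B) : Set B) ≤ Subgroup.centralizer ((P : Subgroup B) : Set B) := by
    rw [hPx]
    have he : Subgroup.centralizer (Subgroup.zpowers x : Set B) =
        Subgroup.normalizer (Subgroup.zpowers x : Set B) := by
      refine Subgroup.eq_of_le_of_card_ge (Subgroup.centralizer_le_normalizer _) (le_of_eq ?_)
      rw [hN, ← hC, Subgroup.zpowers_eq_closure, Subgroup.centralizer_closure]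
    exact he.ge
  have hcomp := MonoidHom.ker_transferSylow_isComplement' P hPN
  set K := (MonoidHom.transferSylow P hPN).ker
  have hP : Nat.card P = 11 := by
    show Nat.card (P : Subgroup B) = 11
    rw [hPx, Nat.card_zpowers, hx]
  have hK : Nat.card K * 11 = 561 * 20160 := by rw [← hP, ← hB]; exact hcomp.card_mul
  obtain ⟨Q⟩ : Nonempty (Sylow 17 ↥K) := inferInstance
  set Q' := (Q : Subgroup ↥K).map K.subtype
  have hsup : Subgroup.normalizer (Q' : Set B) ⊔ K = ⊤ := Sylow.normalizer_sup_eq_top Q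
  set M := Subgroup.normalizer (Q' : Set B)
  have h11 : 11 ∣ Nat.card M := by
    have hsurj : Function.Surjective ((QuotientGroup.mk' K).comp M.subtype) := by
      intro q
      obtain ⟨b, rfl⟩ := QuotientGroup.mk'_surjective K q
      have hb : b ∈ M ⊔ K := hsup ▸ Subgroup.mem_top b
      obtain ⟨m, hm, k, hk, rfl⟩ := Subgroup.mem_sup_of_normal_right.1 hb
      refine ⟨⟨m, hm⟩, ?_⟩
      show (QuotientGroup.mk m : B ⧸ K) = QuotientGroup.mk (m * k)
      exact QuotientGroup.eq.2 (by simpa using hk)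
    have hq : Nat.card (B ⧸ K) = 11 := by
      have h := K.card_mul_index
      rw [hB, ← hK, Subgroup.index_eq_card] at h
      exact Nat.eq_of_mul_eq_mul_left Nat.card_pos h
    rw [← hq]
    exact Subgroup.card_dvd_of_surjective _ hsurj
  obtain ⟨y', hy'⟩ := exists_prime_orderOf_dvd_card' (G := ↥M) 11 h11
  set y : B := (y' : B)
  have hy : orderOf y = 11 := by rw [← hy']; exact Subgroup.orderOf_coe y'
  have hQ17 : Nat.card Q' = 17 := by
    rw [Subgroup.card_map_of_injective K.subtype_injective, Q.card_eq_multiplicity,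
      show Nat.card ↥K = 17 * 60480 by omega,
      show (17 * 60480 : ℕ).factorization 17 = 1 by
        rw [Nat.factorization_mul (by norm_num) (by norm_num), Finsupp.add_apply,
          Nat.Prime.factorization_self (by norm_num), Nat.factorization_eq_zero_of_not_dvd (by norm_num)],
      pow_one]
  have hcomm : ∀ q ∈ Q', q * y = y * q := by
    have h := orderOf_map_dvd (Subgroup.normalizerMonoidHom Q') y'
    have h2 : orderOf (Subgroup.normalizerMonoidHom Q' y') ∣ Nat.card (MulAut ↥Q') := orderOf_dvd_natCard _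
    haveI : IsCyclic ↥Q' := isCyclic_of_prime_card hQ17
    have hc : Nat.card (MulAut ↥Q') = 16 := by
      rw [Nat.card_congr (IsCyclic.mulAutMulEquiv ↥Q').toEquiv, hQ17, Nat.card_units, Nat.card_zmod]
    rw [hy'] at h
    rw [hc] at h2
    have h1 : orderOf (Subgroup.normalizerMonoidHom Q' y') = 1 :=
      Nat.eq_one_of_dvd_coprimes (by norm_num : Nat.Coprime 11 16) h h2
    have hker : y' ∈ (Subgroup.normalizerMonoidHom Q').ker := orderOf_eq_one_iff.1 h1
    rw [Subgroup.normalizerMonoidHom_ker] at hker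
    intro q hq
    exact Subgroup.mem_centralizer_iff.1 hker q hq
  have h17 : 17 ∣ 1023 := by
    refine dvd_trans ?_ (card_centralizer_dvd hA hy)
    rw [← hQ17]
    exact Subgroup.card_dvd_of_le fun q hq => Subgroup.mem_centralizer_singleton_iff.2 (hcomm q hq)
  norm_num at h17

theorem not_792 (hB : Nat.card B = 792 * 20160) (O : Set A) (hO : ∀ b : B, ∀ v ∈ O, b • v ∈ O)
    (hO1 : (1 : A) ∉ O) (h5 : ∃ f : B, orderOf f = 5 ∧ (O ∩ {v | f • v = v}).ncard = 2) : False := by
  classical
  haveI : Fact (Nat.Prime 5) := ⟨by norm_num⟩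
  haveI : Fact (Nat.Prime 3) := ⟨by norm_num⟩
  obtain ⟨P, x, hx, hPx, hC, hN⟩ := eleven hA hB (Or.inr (Or.inl rfl))
  norm_num at hC hN
  set C := Subgroup.centralizer ({x} : Set B)
  set N := Subgroup.normalizer (Subgroup.zpowers x : Set B)
  obtain ⟨z', hz'⟩ := exists_prime_orderOf_dvd_card' (G := ↥C) 3 (by rw [hC]; norm_num)
  obtain ⟨f', hf'⟩ := exists_prime_orderOf_dvd_card' (G := ↥N) 5 (by rw [hN]; norm_num)
  set z : B := (z' : B)
  set f : B := (f' : B)
  have hz : orderOf z = 3 := by rw [← hz']; exact Subgroup.orderOf_coe z'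
  have hf : orderOf f = 5 := by rw [← hf']; exact Subgroup.orderOf_coe f'
  -- conjugation by `f` fixes the subgroup of order three
  have hCf : ∀ c ∈ C, f * c * f⁻¹ ∈ C := by
    intro c hc
    rw [Subgroup.mem_centralizer_singleton_iff] at hc ⊢
    have hfx : f * x * f⁻¹ ∈ Subgroup.zpowers x :=
      (Subgroup.mem_normalizer_iff.1 f'.2 x).1 (Subgroup.mem_zpowers x)
    have hfi : f⁻¹ * x * f ∈ Subgroup.zpowers x := by
      have := (Subgroup.mem_normalizer_iff.1 (N.inv_mem f'.2) x).1 (Subgroup.mem_zpowers x)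
      rwa [inv_inv] at this
    obtain ⟨k, hk⟩ := Subgroup.mem_zpowers_iff.1 hfi
    have hck : c * x ^ k = x ^ k * c := (Commute.zpow_right (show Commute c x from hc) k).eq
    rw [hk] at hck
    calc f * c * f⁻¹ * x = f * (c * (f⁻¹ * x * f)) * f⁻¹ := by group
      _ = f * ((f⁻¹ * x * f) * c) * f⁻¹ := by rw [hck]
      _ = x * (f * c * f⁻¹) := by group
  have huniq : ∀ w ∈ C, orderOf w = 3 → w ∈ Subgroup.zpowers z := by
    intro w hw hw3
    set Z : Subgroup ↥C := Subgroup.zpowers z'
    have hZ : IsPGroup 3 ↥Z := IsPGroup.of_card (n := 1) (by rw [Nat.card_zpowers, hz', pow_one])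
    have hidx : ¬ 3 ∣ Z.index := by
      have h := Z.card_mul_index
      rw [Nat.card_zpowers, hz', hC] at h
      omega
    let S := hZ.toSylow hidx
    have h1 : Nat.card (Sylow 3 ↥C) = 1 := by
      have hdvd := S.card_dvd_index
      have hi : (S : Subgroup ↥C).index = 11 := by
        have h := Z.card_mul_index
        rw [Nat.card_zpowers, hz', hC] at h
        show Z.index = 11
        omega
      rw [hi] at hdvd
      have hmod := card_sylow_modEq_one 3 ↥C
      rcases (Nat.dvd_prime (by norm_num)).1 hdvd with h' | h'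
      · exact h'
      · rw [h'] at hmod; simp [Nat.ModEq] at hmod
    haveI : Subsingleton (Sylow 3 ↥C) := (Nat.card_eq_one_iff_unique.1 h1).1
    have hwp : IsPGroup 3 ↥(Subgroup.zpowers (⟨w, hw⟩ : ↥C)) :=
      IsPGroup.of_card (n := 1) (by rw [Nat.card_zpowers, Subgroup.orderOf_mk, hw3, pow_one])
    obtain ⟨Q, hQ⟩ := hwp.exists_le_sylow
    rw [Subsingleton.elim Q S] at hQ
    obtain ⟨k, hk⟩ := Subgroup.mem_zpowers_iff.1
      (show (⟨w, hw⟩ : ↥C) ∈ Z from hQ (Subgroup.mem_zpowers _))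
    exact ⟨k, congrArg Subtype.val hk⟩
  have hfz : f * z = z * f := by
    have hmem := huniq _ (hCf z z'.2) (by
      rw [← hz]; exact orderOf_injective (MulAut.conj f).toMonoidHom (MulAut.conj f).injective z)
    obtain ⟨k, hk⟩ := (mem_powers_iff_mem_zpowers.2 hmem)
    have hk' : f * z * f⁻¹ = z ^ (k % 3) := by rw [← hz, pow_mod_orderOf]; exact hk.symm
    have hk3 : k % 3 < 3 := Nat.mod_lt _ (by norm_num)
    rcases (by omega : k % 3 = 0 ∨ k % 3 = 1 ∨ k % 3 = 2) with e | e | e <;> rw [e] at hk'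
    · exfalso
      rw [pow_zero, mul_inv_eq_one, mul_eq_left] at hk'
      rw [hk', orderOf_one] at hz; norm_num at hz
    · rw [pow_one, mul_inv_eq_iff_eq_mul] at hk'; exact hk'
    · have h2 : (f ^ 2) * z = z * f ^ 2 := by
        have hz4 : z ^ 4 = z := by rw [← pow_mod_orderOf, hz, pow_one]
        have : f ^ 2 * z * (f ^ 2)⁻¹ = z := by
          calc f ^ 2 * z * (f ^ 2)⁻¹ = f * (f * z * f⁻¹) * f⁻¹ := by rw [pow_two]; group
            _ = f * z ^ 2 * f⁻¹ := by rw [hk']
            _ = (f * z * f⁻¹) ^ 2 := conj_pow.symm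
            _ = z := by rw [hk', ← pow_mul]; exact hz4
        exact mul_inv_eq_iff_eq_mul.1 this
      have hf5 : f ^ 5 = 1 := by rw [← hf]; exact pow_orderOf_eq_one f
      have hf6 : (f ^ 2) ^ 3 = f := by rw [← pow_mul, pow_succ, hf5, one_mul]
      have := (Commute.pow_left (show Commute (f ^ 2) z from h2) 3).eq
      rwa [hf6] at this
  -- fixed points of a Sylow 5-element
  obtain ⟨f₀, hf₀, hfix⟩ := h5
  have hcard5 : Nat.card (Subgroup.zpowers f) = 5 := by rw [Nat.card_zpowers, hf]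
  have hcard50 : Nat.card (Subgroup.zpowers f₀) = 5 := by rw [Nat.card_zpowers, hf₀]
  have hno : ∀ R : Subgroup B, Nat.card R = 5 → ¬ 5 ∣ R.index := by
    intro R hR
    have h := R.card_mul_index
    rw [hR, hB] at h
    omega
  obtain ⟨g, hg⟩ := MulAction.exists_smul_eq B
    ((IsPGroup.of_card (n := 1) (hcard50.trans (pow_one 5).symm)).toSylow (hno _ hcard50))
    ((IsPGroup.of_card (n := 1) (hcard5.trans (pow_one 5).symm)).toSylow (hno _ hcard5))
  have hmap : ∀ v : A, f • v = v ↔ f₀ • (g⁻¹ • v) = g⁻¹ • v := by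
    have hval : (Subgroup.zpowers f₀).map (MulAut.conj g).toMonoidHom = Subgroup.zpowers f := by
      have := congrArg (fun S : Sylow 5 B => (S : Subgroup B)) hg
      rw [Sylow.coe_subgroup_smul] at this
      exact this
    intro v
    have hst : ∀ (a : B) (u : A), a • u = u ↔ ∀ b ∈ Subgroup.zpowers a, b • u = u := fun a u =>
      ⟨fun h => fun b hb => (Subgroup.zpowers_le.2 (show a ∈ MulAction.stabilizer B u from h)) hb,
        fun h => h a (Subgroup.mem_zpowers a)⟩
    rw [hst, hst f₀, ← hval]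
    constructor
    · intro h b hb
      have h2 := h _ ⟨b, hb, rfl⟩
      simp only [MulEquiv.coe_toMonoidHom, MulAut.conj_apply, mul_smul] at h2
      rw [← inv_smul_smul g (b • g⁻¹ • v), h2]
    · rintro h _ ⟨b, hb, rfl⟩
      simp only [MulEquiv.coe_toMonoidHom, MulAut.conj_apply, mul_smul, h b hb, smul_inv_smul]
  set X := O ∩ {v : A | f • v = v}
  have hX : X.ncard = 2 := by
    rw [← hfix]
    refine Set.ncard_congr (fun v _ => g⁻¹ • v) (fun v hv => ⟨hO _ v hv.1, (hmap v).1 hv.2⟩)
      (fun u v _ _ h => smul_left_cancel g⁻¹ h) fun v hv => ⟨g • v, ⟨hO _ v hv.1, ?_⟩, inv_smul_smul g v⟩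
    exact (hmap _).2 (by rw [inv_smul_smul]; exact hv.2)
  have hzX : ∀ b ∈ Subgroup.zpowers z, ∀ v ∈ X, b • v ∈ X := by
    intro b hb v hv
    refine ⟨hO _ v hv.1, ?_⟩
    have hcb : f * b = b * f := by
      obtain ⟨k, rfl⟩ := hb
      exact (Commute.zpow_right (show Commute f z from hfz) k).eq
    show f • b • v = b • v
    rw [← mul_smul, hcb, mul_smul, show f • v = v from hv.2]
  letI : MulAction ↥(Subgroup.zpowers z) ↥X :=
    { smul := fun b v => ⟨(b : B) • (v : A), hzX b b.2 v v.2⟩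
      one_smul := fun v => Subtype.ext (one_smul B (v : A))
      mul_smul := fun b c v => Subtype.ext (mul_smul (b : B) (c : B) (v : A)) }
  have hmod := (IsPGroup.of_card (G := ↥(Subgroup.zpowers z)) (p := 3) (n := 1)
    (by rw [Nat.card_zpowers, hz, pow_one])).card_modEq_card_fixedPoints ↥X
  have hnone : Nat.card (MulAction.fixedPoints ↥(Subgroup.zpowers z) ↥X) = 0 := by
    haveI : IsEmpty (MulAction.fixedPoints ↥(Subgroup.zpowers z) ↥X) := ⟨fun v => by
      have h := congrArg Subtype.val (v.2 ⟨z, Subgroup.mem_zpowers z⟩)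
      have := free hA hx (Subgroup.mem_centralizer_singleton_iff.1 z'.2)
        (fun e => hO1 (e ▸ v.1.2.1)) h
      rw [show z = 1 from this, orderOf_one] at hz
      norm_num at hz⟩
    exact Nat.card_of_isEmpty
  rw [hnone, Nat.card_coe_set_eq, hX] at hmod
  simp [Nat.ModEq] at hmod

theorem not_1023 (hB : Nat.card B = 1023 * 20160) (d : A)
    (htr : ∀ v : A, v ≠ 1 → ∃ b : B, b • v = d)
    (hinv : ∀ b : B, orderOf b = 2 → b • d = d → 64 ≤ Nat.card (fix A b)) : False := by
  classical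
  haveI : Fact (Nat.Prime 2) := ⟨Nat.prime_two⟩
  obtain ⟨P, x, hx, hPx, hC, hN⟩ := eleven hA hB (Or.inr (Or.inr rfl))
  norm_num at hC hN
  set N := Subgroup.normalizer (Subgroup.zpowers x : Set B)
  obtain ⟨f', hf'⟩ := exists_prime_orderOf_dvd_card' (G := ↥N) 2 (by rw [hN]; norm_num)
  set f : B := (f' : B)
  have hf : orderOf f = 2 := by rw [← hf']; exact Subgroup.orderOf_coe f'
  have hff : f * f = 1 := by rw [← pow_two, ← hf]; exact pow_orderOf_eq_one f
  have hfi : f⁻¹ = f := inv_eq_of_mul_eq_one_right hff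
  -- `f` inverts `x`
  have hinvert : f * x * f⁻¹ = x⁻¹ := by
    obtain ⟨k, hk⟩ := mem_powers_iff_mem_zpowers.2
      ((Subgroup.mem_normalizer_iff.1 f'.2 x).1 (Subgroup.mem_zpowers x))
    have hk' : f * x * f⁻¹ = x ^ (k % 11) := by rw [← hx, pow_mod_orderOf]; exact hk.symm
    have h2 : x ^ ((k % 11) * (k % 11)) = x ^ 1 := by
      rw [pow_mul, ← hk', conj_pow, ← hk', show f * (f * x * f⁻¹) * f⁻¹ = f * f * x * (f * f)⁻¹ by group,
        hff]
      simp
    rw [pow_eq_pow_iff_modEq, hx] at h2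
    have hlt : k % 11 < 11 := Nat.mod_lt _ (by norm_num)
    have : k % 11 = 1 ∨ k % 11 = 10 := by
      revert h2
      generalize k % 11 = r at hlt
      interval_cases r <;> simp [Nat.ModEq]
    rcases this with e | e <;> rw [e] at hk'
    · exfalso
      have hfc : f ∈ Subgroup.centralizer ({x} : Set B) :=
        Subgroup.mem_centralizer_singleton_iff.2 (mul_inv_eq_iff_eq_mul.1 (hk'.trans (pow_one x)))
      have := (Subgroup.centralizer ({x} : Set B)).orderOf_dvd_natCard hfc
      rw [hf, hC] at this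
      norm_num at this
    · rw [hk']
      refine eq_inv_of_mul_eq_one_left ?_
      rw [← pow_succ]
      have h11 := pow_orderOf_eq_one x
      rw [hx] at h11
      exact h11
  set F := fix A f
  have hbound : Nat.card F * Nat.card F ≤ 1024 := by
    rw [← hA, ← Nat.card_prod]
    refine Nat.card_le_card_of_injective (fun p : F × F => (p.1 : A) * x • (p.2 : A)) ?_
    rintro ⟨u, v⟩ ⟨u', v'⟩ h
    simp only at h
    have hw : x • ((v' : A) * (v : A)⁻¹) = (u : A) * (u' : A)⁻¹ := by
      rw [smul_mul', smul_inv', mul_inv_eq_iff_eq_mul, mul_right_comm, ← div_eq_mul_inv,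
        eq_div_iff_mul_eq', mul_comm, ← h, mul_comm]
    set w := (v' : A) * (v : A)⁻¹
    have hw1 : f • w = w := (F.mul_mem v'.2 (F.inv_mem v.2) : w ∈ F)
    have hw2 : f • x • w = x • w := by
      rw [hw]; exact (F.mul_mem u.2 (F.inv_mem u'.2) : (u : A) * (u' : A)⁻¹ ∈ F)
    have hx2 : (x * x) • w = w := by
      rw [← mul_smul, mul_inv_eq_iff_eq_mul.1 hinvert, mul_smul, hw1] at hw2
      calc (x * x) • w = x • (x • w) := mul_smul ..
        _ = x • (x⁻¹ • w) := by rw [← hw2]
        _ = w := smul_inv_smul x w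
    have hw0 : w = 1 := no_fix hA (x := x * x) (by
      rw [← pow_two, orderOf_pow' x (by norm_num), hx]; norm_num) hx2
    have hv : v = v' := Subtype.ext (mul_inv_eq_one.1 hw0).symm
    subst hv
    exact Prod.ext (Subtype.ext (mul_right_cancel h)) rfl
  obtain ⟨v, hv, hv1⟩ : ∃ v : A, f • v = v ∧ v ≠ 1 := by
    have hp : IsPGroup 2 ↥(Subgroup.zpowers f) :=
      IsPGroup.of_card (n := 1) (by rw [Nat.card_zpowers, hf, pow_one])
    have hmod := hp.card_modEq_card_fixedPoints A
    rw [hA] at hmod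
    by_contra hno
    push Not at hno
    have : Nat.card (MulAction.fixedPoints ↥(Subgroup.zpowers f) A) = 1 := by
      rw [Nat.card_eq_one_iff_unique]
      exact ⟨⟨fun a b => Subtype.ext ((hno _ (a.2 ⟨f, Subgroup.mem_zpowers f⟩)).trans
        (hno _ (b.2 ⟨f, Subgroup.mem_zpowers f⟩)).symm)⟩, ⟨⟨1, fun g => smul_one (g : B)⟩⟩⟩
    rw [this] at hmod
    simp [Nat.ModEq] at hmod
  obtain ⟨b, hb⟩ := htr v hv1
  have h64 := hinv (b * f * b⁻¹)
    (by rw [← hf]; exact orderOf_injective (MulAut.conj b).toMonoidHom (MulAut.conj b).injective f)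
    (by rw [← hb, mul_smul, mul_smul, inv_smul_smul, hv])
  have hsame : Nat.card (fix A (b * f * b⁻¹)) = Nat.card F := by
    refine (Nat.card_congr (Equiv.subtypeEquiv (MulAction.toPerm b) fun u => ?_)).symm
    show f • u = u ↔ (b * f * b⁻¹) • b • u = b • u
    rw [mul_smul, mul_smul, inv_smul_smul, smul_left_cancel_iff]
  rw [hsame] at h64
  nlinarith [hbound, h64]

end free

section twentyone

variable {α : Type*} [Fintype α] [DecidableEq α]

theorem perm_twentyone (hα : Fintype.card α = 21) (B : Subgroup (Equiv.Perm α))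
    (h2 : MulAction.IsMultiplyPretransitive ↥B α 2) (h15 : 2 ^ 15 ∣ Nat.card B)
    (hsmall : 2 * Nat.card B < Nat.factorial 21) : False := by
  classical
  haveI : Fact (Nat.Prime 2) := ⟨Nat.prime_two⟩
  have hprim : MulAction.IsPreprimitive ↥B α :=
    MulAction.isPreprimitive_of_is_two_pretransitive h2
  obtain ⟨e⟩ : Nonempty (α ≃ Fin 21) := ⟨Fintype.equivFinOfCardEq hα⟩
  let sw : Fin 10 → Equiv.Perm α := fun i =>
    Equiv.swap (e.symm ⟨2 * i, by omega⟩) (e.symm ⟨2 * i + 1, by omega⟩)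
  have hsw_fix : ∀ (i : Fin 10) (p : Fin 21), (p : ℕ) / 2 ≠ i → sw i (e.symm p) = e.symm p := by
    intro i p hp
    refine Equiv.swap_apply_of_ne_of_ne (fun h => hp ?_) (fun h => hp ?_) <;>
      · have := congrArg Fin.val (e.symm.injective h)
        simp only at this
        omega
  have hcomm : ∀ i j, Commute (sw i) (sw j) := by
    intro i j
    by_cases hij : i = j
    · rw [hij]
    · refine (Equiv.Perm.disjoint_iff_disjoint_support.2 ?_).commute
      rw [Equiv.Perm.support_swap (by simp), Equiv.Perm.support_swap (by simp)]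
      have hne : (i : ℕ) ≠ j := fun h => hij (Fin.ext h)
      simp [Fin.ext_iff]
      omega
  haveI : IsMulCommutative ↥(Subgroup.closure (Set.range sw)) :=
    Subgroup.isMulCommutative_closure (by rintro _ ⟨i, rfl⟩ _ ⟨j, rfl⟩; exact (hcomm i j).eq)
  set Y := Subgroup.closure (Set.range sw)
  have hY : IsPGroup 2 ↥Y := by
    rintro ⟨y, hy⟩
    refine ⟨1, Subtype.ext ?_⟩
    show y ^ (2 ^ 1) = 1
    induction hy using Subgroup.closure_induction with
    | mem y hy => obtain ⟨i, rfl⟩ := hy; rw [pow_one, pow_two]; exact Equiv.swap_mul_self _ _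
    | one => simp
    | mul a b ha hb h1 h2 =>
      have hab : Commute a b :=
        congrArg Subtype.val (mul_comm' (⟨a, ha⟩ : ↥Y) ⟨b, hb⟩)
      rw [hab.mul_pow, h1, h2, one_mul]
    | inv a _ h => rw [inv_pow, h, inv_one]
  obtain ⟨Q, hQ⟩ := hY.exists_le_sylow
  obtain ⟨R, hR⟩ := Sylow.exists_subgroup_card_pow_prime (G := ↥B) 2 (n := 15) h15
  have hRp : IsPGroup 2 ↥(R.map B.subtype) :=
    IsPGroup.of_card (n := 15) (by rw [Subgroup.card_map_of_injective B.subtype_injective, hR])
  obtain ⟨Q', hQ'⟩ := hRp.exists_le_sylow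
  obtain ⟨g, hg⟩ := MulAction.exists_smul_eq (Equiv.Perm α) Q' Q
  set R' := (R.map B.subtype).map (MulAut.conj g).toMonoidHom
  have hR'Q : R' ≤ (Q : Subgroup (Equiv.Perm α)) := by
    rw [← hg, Sylow.coe_subgroup_smul]
    rintro _ ⟨r, hr, rfl⟩
    exact ⟨r, hQ' hr, rfl⟩
  have hQcard : Nat.card (Q : Subgroup (Equiv.Perm α)) = 2 ^ 18 := by
    rw [Q.card_eq_multiplicity, Nat.card_eq_fintype_card, Fintype.card_perm, hα]
    congr 1
    rw [show Nat.factorial 21 = 2 ^ 18 * 194896477400625 by decide +kernel,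
      Nat.factorization_mul (by norm_num) (by norm_num), Finsupp.add_apply,
      Nat.Prime.factorization_pow Nat.prime_two, Finsupp.single_eq_same,
      Nat.factorization_eq_zero_of_not_dvd (by norm_num)]
  have hR'card : Nat.card R' = 2 ^ 15 := by
    rw [Subgroup.card_map_of_injective (MulAut.conj g).injective,
      Subgroup.card_map_of_injective B.subtype_injective, hR]
  have hidx : (R'.subgroupOf Q).index = 8 := by
    have h := (R'.subgroupOf (Q : Subgroup (Equiv.Perm α))).card_mul_index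
    rw [Nat.card_congr (Subgroup.subgroupOfEquivOfLe hR'Q).toEquiv, hR'card, hQcard] at h
    omega
  let u : Option (Fin 10) → ↥(Q : Subgroup (Equiv.Perm α)) := fun o =>
    match o with
    | none => 1
    | some i => ⟨sw i, hQ (Subgroup.subset_closure ⟨i, rfl⟩)⟩
  have hnotinj : ¬ Function.Injective fun o => (QuotientGroup.mk (u o) : _ ⧸ R'.subgroupOf Q) := by
    intro hinj
    have h := Nat.card_le_card_of_injective _ hinj
    rw [← Subgroup.index_eq_card, hidx] at h
    simp at h
  obtain ⟨o, o', heq, hne⟩ : ∃ o o', (QuotientGroup.mk (u o) : _ ⧸ R'.subgroupOf Q) =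
      QuotientGroup.mk (u o') ∧ o ≠ o' := by
    simpa [Function.Injective] using hnotinj
  have hmem : ((u o : Equiv.Perm α))⁻¹ * (u o') ∈ R' := by
    have := QuotientGroup.eq.1 heq
    exact this
  -- pull back into `B`
  have hback : ∀ y ∈ R', g⁻¹ * y * g ∈ B := by
    rintro _ ⟨_, ⟨r, -, rfl⟩, rfl⟩
    have : g⁻¹ * (MulAut.conj g (r : Equiv.Perm α)) * g = (r : Equiv.Perm α) := by
      rw [MulAut.conj_apply]; group
    exact this ▸ r.2
  have hA3 : ∀ c ∈ B, c.IsThreeCycle → False := by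
    intro c hc h3
    have h := Subgroup.card_le_of_le
      (Equiv.Perm.alternatingGroup_le_of_isPreprimitive_of_isThreeCycle_mem hprim h3 hc)
    haveI : Nontrivial α := Fintype.one_lt_card_iff_nontrivial.1 (by omega)
    have h' := two_mul_nat_card_alternatingGroup (α := α)
    rw [Nat.card_eq_fintype_card (α := Equiv.Perm α), Fintype.card_perm, hα] at h'
    omega
  have hswap : ∀ c ∈ B, c.IsSwap → False := by
    intro c hc hs
    have h := Equiv.Perm.subgroup_eq_top_of_isPreprimitive_of_isSwap_mem hprim c hs hc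
    rw [h, Subgroup.card_top, Nat.card_eq_fintype_card, Fintype.card_perm, hα] at hsmall
    omega
  have conj_swap : ∀ (h : Equiv.Perm α) (a b : α),
      h * Equiv.swap a b * h⁻¹ = Equiv.swap (h a) (h b) := fun h a b => by
    rw [Equiv.swap_apply_apply]
  have hsw_swap : ∀ i : Fin 10, e.symm ⟨2 * i, by omega⟩ ≠ e.symm ⟨2 * i + 1, by omega⟩ :=
    fun i => by simp
  have huinv : ∀ o, ((u o : Equiv.Perm α))⁻¹ = u o := by
    rintro (_ | i)
    · exact inv_one
    · exact Equiv.swap_inv _ _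
  rw [huinv] at hmem
  have hB' := hback _ hmem
  rcases o with _ | i <;> rcases o' with _ | j
  · exact hne rfl
  · refine hswap _ hB' ?_
    show (g⁻¹ * (1 * sw j) * g).IsSwap
    rw [one_mul, show g⁻¹ * sw j * g = g⁻¹ * sw j * g⁻¹⁻¹ by rw [inv_inv], conj_swap]
    exact ⟨_, _, fun h => hsw_swap j (g⁻¹.injective h), rfl⟩
  · refine hswap _ hB' ?_
    show (g⁻¹ * (sw i * 1) * g).IsSwap
    rw [mul_one, show g⁻¹ * sw i * g = g⁻¹ * sw i * g⁻¹⁻¹ by rw [inv_inv], conj_swap]
    exact ⟨_, _, fun h => hsw_swap i (g⁻¹.injective h), rfl⟩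
  have hij : (i : ℕ) ≠ j := fun h => hne (congrArg some (Fin.ext h))
  set a := g⁻¹ (e.symm ⟨2 * i, by omega⟩)
  set b := g⁻¹ (e.symm ⟨2 * i + 1, by omega⟩)
  set c := g⁻¹ (e.symm ⟨2 * j, by omega⟩)
  set d := g⁻¹ (e.symm ⟨2 * j + 1, by omega⟩)
  have hdd : Equiv.swap a b * Equiv.swap c d ∈ B := by
    have : g⁻¹ * (sw i * sw j) * g = Equiv.swap a b * Equiv.swap c d := by
      rw [show g⁻¹ * (sw i * sw j) * g = (g⁻¹ * sw i * g⁻¹⁻¹) * (g⁻¹ * sw j * g⁻¹⁻¹) by group,
        conj_swap, conj_swap]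
    exact this ▸ hB'
  set Q4 : Finset α := {a, b, c, d}
  have hab : a ≠ b := fun h => hsw_swap i (g⁻¹.injective h)
  have hcd : c ≠ d := fun h => hsw_swap j (g⁻¹.injective h)
  have hinj' : ∀ p q : Fin 21, p ≠ q → g⁻¹ (e.symm p) ≠ g⁻¹ (e.symm q) := fun p q hpq h =>
    hpq (e.symm.injective (g⁻¹.injective h))
  have hac : a ≠ c := hinj' _ _ (by simp [Fin.ext_iff]; omega)
  have had : a ≠ d := hinj' _ _ (by simp [Fin.ext_iff]; omega)
  have hbc : b ≠ c := hinj' _ _ (by simp [Fin.ext_iff]; omega)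
  have hbd : b ≠ d := hinj' _ _ (by simp [Fin.ext_iff]; omega)
  have hQ4 : Q4.card = 4 := by
    simp [Q4, hab, hac, had, hbc, hbd, hcd]
  -- a conjugate meeting the support in one point
  haveI := Fintype.ofFinite ↥B
  have hone : ∀ q r : α, ((Finset.univ.filter fun h : ↥B => (h : Equiv.Perm α) q = r).card) * 21 =
      Fintype.card ↥B := by
    intro q r
    haveI : MulAction.IsPretransitive ↥B α := hprim.toIsPretransitive
    have hall : ∀ r', (Finset.univ.filter fun h : ↥B => (h : Equiv.Perm α) q = r').card =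
        (Finset.univ.filter fun h : ↥B => (h : Equiv.Perm α) q = r).card := by
      intro r'
      obtain ⟨k, hk⟩ := MulAction.exists_smul_eq ↥B r' r
      refine Finset.card_nbij' (fun h => k * h) (fun h => k⁻¹ * h) ?_ ?_ ?_ ?_
      · intro h hh
        simp only [Finset.coe_filter, Finset.mem_univ, true_and, Set.mem_ofPred_eq] at hh ⊢
        show (k : Equiv.Perm α) ((h : Equiv.Perm α) q) = r
        rw [hh]; exact hk
      · intro h hh
        simp only [Finset.coe_filter, Finset.mem_univ, true_and, Set.mem_ofPred_eq] at hh ⊢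
        show (k : Equiv.Perm α)⁻¹ ((h : Equiv.Perm α) q) = r'
        rw [hh, Equiv.Perm.inv_def, Equiv.symm_apply_eq]
        exact hk.symm
      · intro h _; exact inv_mul_cancel_left k h
      · intro h _; exact mul_inv_cancel_left k h
    have hsum := Finset.card_eq_sum_card_fiberwise (s := (Finset.univ : Finset ↥B)) (t := Finset.univ)
      (f := fun h : ↥B => (h : Equiv.Perm α) q) fun _ _ => Finset.mem_univ _
    rw [Finset.sum_congr rfl (fun r' _ => hall r'), Finset.sum_const, Finset.card_univ,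
      Finset.card_univ, hα, smul_eq_mul] at hsum
    omega
  have htwo : ∀ q q' r r' : α, q ≠ q' → r ≠ r' →
      ((Finset.univ.filter fun h : ↥B => (h : Equiv.Perm α) q = r ∧ (h : Equiv.Perm α) q' = r').card) *
        420 = Fintype.card ↥B := by
    intro q q' r r' hq hr
    haveI := h2
    have hall : ∀ p : α × α, p.1 ≠ p.2 →
        (Finset.univ.filter fun h : ↥B => ((h : Equiv.Perm α) q, (h : Equiv.Perm α) q') = p).card =
        (Finset.univ.filter fun h : ↥B => ((h : Equiv.Perm α) q, (h : Equiv.Perm α) q') = (r, r')).card := by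
      rintro ⟨p, p'⟩ hp
      obtain ⟨k, hk1, hk2⟩ := MulAction.is_two_pretransitive_iff.1 h2 hp hr
      refine Finset.card_nbij' (fun h => k * h) (fun h => k⁻¹ * h) ?_ ?_ ?_ ?_
      · intro h hh
        simp only [Finset.coe_filter, Finset.mem_univ, true_and, Set.mem_ofPred_eq, Prod.mk.injEq] at hh ⊢
        refine ⟨?_, ?_⟩
        · show (k : Equiv.Perm α) ((h : Equiv.Perm α) q) = r
          rw [hh.1]; exact hk1
        · show (k : Equiv.Perm α) ((h : Equiv.Perm α) q') = r'
          rw [hh.2]; exact hk2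
      · intro h hh
        simp only [Finset.coe_filter, Finset.mem_univ, true_and, Set.mem_ofPred_eq, Prod.mk.injEq] at hh ⊢
        refine ⟨?_, ?_⟩
        · show (k : Equiv.Perm α)⁻¹ ((h : Equiv.Perm α) q) = p
          rw [hh.1, Equiv.Perm.inv_def, Equiv.symm_apply_eq]; exact hk1.symm
        · show (k : Equiv.Perm α)⁻¹ ((h : Equiv.Perm α) q') = p'
          rw [hh.2, Equiv.Perm.inv_def, Equiv.symm_apply_eq]; exact hk2.symm
      · intro h _; exact inv_mul_cancel_left k h
      · intro h _; exact mul_inv_cancel_left k h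
    have hsum := Finset.card_eq_sum_card_fiberwise (s := (Finset.univ : Finset ↥B))
      (t := (Finset.univ : Finset α).offDiag)
      (f := fun h : ↥B => ((h : Equiv.Perm α) q, (h : Equiv.Perm α) q'))
      fun h _ => Finset.mem_offDiag.2 ⟨Finset.mem_univ _, Finset.mem_univ _,
        fun e' => hq ((h : Equiv.Perm α).injective e')⟩
    rw [Finset.sum_congr rfl (fun p hp => hall p (Finset.mem_offDiag.1 hp).2.2), Finset.sum_const,
      Finset.offDiag_card, Finset.card_univ, Finset.card_univ, hα, smul_eq_mul] at hsum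
    simp only [Prod.mk.injEq] at hsum
    omega
  let X : ↥B → ℕ := fun h => (Q4.filter fun q => (h : Equiv.Perm α) q ∈ Q4).card
  obtain ⟨h, hh⟩ : ∃ h : ↥B, X h = 1 := by
    by_contra hno
    push Not at hno
    have hle : ∀ h : ↥B, 2 * X h ≤ X h * X h := fun h => by
      rcases Nat.lt_or_ge (X h) 2 with h' | h'
      · have := hno h
        rw [show X h = 0 by omega]
      · exact Nat.mul_le_mul_right _ h'
    have hmul : ∀ h : ↥B, X h * X h = X h + ((Q4.filter fun q => (h : Equiv.Perm α) q ∈ Q4).offDiag).card := by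
      intro h
      rw [Finset.offDiag_card]
      have : X h ≤ X h * X h := by
        rcases Nat.eq_zero_or_pos (X h) with h0 | h0
        · rw [h0]
        · exact Nat.le_mul_of_pos_left _ h0
      show X h * X h = X h + (X h * X h - X h)
      omega
    have s1 : (∑ h : ↥B, X h) * 21 = Fintype.card ↥B * 16 := by
      simp only [X, Finset.card_filter]
      rw [Finset.sum_comm, Finset.sum_mul]
      have : ∀ q ∈ Q4, (∑ h : ↥B, if (h : Equiv.Perm α) q ∈ Q4 then 1 else 0) * 21 =
          Fintype.card ↥B * 4 := by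
        intro q _
        rw [← Finset.card_filter,
          Finset.card_eq_sum_card_fiberwise (s := Finset.univ.filter fun h : ↥B =>
              (h : Equiv.Perm α) q ∈ Q4) (t := Q4) (f := fun h : ↥B => (h : Equiv.Perm α) q)
            (fun h hh => (Finset.mem_filter.1 hh).2), Finset.sum_mul]
        rw [Finset.sum_congr rfl (fun r hr => ?_), Finset.sum_const, hQ4, smul_eq_mul, mul_comm]
        rw [Finset.filter_filter, ← hone q r]
        congr 2
        refine Finset.filter_congr fun h _ => ⟨fun hh => hh.2, fun hh => ⟨hh ▸ hr, hh⟩⟩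
      rw [Finset.sum_congr rfl this, Finset.sum_const, hQ4, smul_eq_mul]
      ring
    have s2 : (∑ h : ↥B, ((Q4.filter fun q => (h : Equiv.Perm α) q ∈ Q4).offDiag).card) * 420 =
        Fintype.card ↥B * 144 := by
      have e1 : ∀ h : ↥B, ((Q4.filter fun q => (h : Equiv.Perm α) q ∈ Q4).offDiag).card =
          ∑ p ∈ Q4.offDiag, if (h : Equiv.Perm α) p.1 ∈ Q4 ∧ (h : Equiv.Perm α) p.2 ∈ Q4 then 1 else 0 := by
        intro h
        rw [← Finset.card_filter]
        congr 1
        ext p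
        simp only [Finset.mem_offDiag, Finset.mem_filter]
        tauto
      simp only [e1]
      rw [Finset.sum_comm, Finset.sum_mul]
      have : ∀ p ∈ Q4.offDiag, (∑ h : ↥B, if (h : Equiv.Perm α) p.1 ∈ Q4 ∧ (h : Equiv.Perm α) p.2 ∈ Q4
          then 1 else 0) * 420 = Fintype.card ↥B * 12 := by
        rintro ⟨q, q'⟩ hp
        have hne' : q ≠ q' := (Finset.mem_offDiag.1 hp).2.2
        rw [← Finset.card_filter,
          Finset.card_eq_sum_card_fiberwise (s := Finset.univ.filter fun h : ↥B =>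
              (h : Equiv.Perm α) q ∈ Q4 ∧ (h : Equiv.Perm α) q' ∈ Q4) (t := Q4.offDiag)
            (f := fun h : ↥B => ((h : Equiv.Perm α) q, (h : Equiv.Perm α) q'))
            (fun h hh => Finset.mem_offDiag.2 ⟨(Finset.mem_filter.1 hh).2.1, (Finset.mem_filter.1 hh).2.2,
              fun e' => hne' ((h : Equiv.Perm α).injective e')⟩), Finset.sum_mul]
        rw [Finset.sum_congr rfl (fun r hr => ?_), Finset.sum_const, Finset.offDiag_card, hQ4,
          smul_eq_mul, mul_comm]
        obtain ⟨hr1, hr2, hr3⟩ := Finset.mem_offDiag.1 hr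
        rw [Finset.filter_filter, ← htwo q q' r.1 r.2 hne' hr3]
        congr 2
        refine Finset.filter_congr fun h _ => ⟨fun hh => Prod.ext_iff.1 hh.2, fun hh => ?_⟩
        exact ⟨⟨hh.1 ▸ hr1, hh.2 ▸ hr2⟩, Prod.ext hh.1 hh.2⟩
      rw [Finset.sum_congr rfl this, Finset.sum_const, Finset.offDiag_card, hQ4, smul_eq_mul]
      ring
    have s3 := Finset.sum_le_sum (s := (Finset.univ : Finset ↥B)) fun h _ => hle h
    rw [← Finset.mul_sum, Finset.sum_congr rfl (fun h _ => hmul h), Finset.sum_add_distrib] at s3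
    have : 0 < Fintype.card ↥B := Fintype.card_pos
    omega
  obtain ⟨q₀, hq₀⟩ := Finset.card_eq_one.1 hh
  -- the two double transpositions and their product
  set y := Equiv.swap a b * Equiv.swap c d
  set y' := (h : Equiv.Perm α) * y * (h : Equiv.Perm α)⁻¹
  have hy' : y' ∈ B := B.mul_mem (B.mul_mem h.2 hdd) (B.inv_mem h.2)
  -- arrange the common point
  have key : ∀ p₁ p₂ p₃ p₄ r₂ r₃ r₄ : α, p₁ ≠ p₂ → p₁ ≠ r₂ → p₂ ≠ r₂ → p₃ ∉ [p₁, p₂, r₂, r₃, r₄] →
      p₄ ∉ [p₁, p₂, r₂, r₃, r₄] → r₃ ∉ [p₁, p₂, r₂] → r₄ ∉ [p₁, p₂, r₂] →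
      Equiv.swap p₁ p₂ * Equiv.swap p₃ p₄ ∈ B → Equiv.swap p₁ r₂ * Equiv.swap r₃ r₄ ∈ B → False := by
    intro p₁ p₂ p₃ p₄ r₂ r₃ r₄ h12 h1r h2r h3 h4 k3 k4 hm hm'
    simp only [List.mem_cons, List.not_mem_nil, or_false, not_or] at h3 h4 k3 k4
    obtain ⟨h31, h32, h3r, h3r3, h3r4⟩ := h3
    obtain ⟨h41, h42, h4r, h4r3, h4r4⟩ := h4
    obtain ⟨k31, k32, k3r⟩ := k3
    obtain ⟨k41, k42, k4r⟩ := k4
    set S := Equiv.swap p₁ p₂ * Equiv.swap p₁ r₂
    set U := Equiv.swap p₃ p₄
    set W := Equiv.swap r₃ r₄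
    have d1 : ∀ {x x' z z' : α}, x ≠ z → x ≠ z' → x' ≠ z → x' ≠ z' →
        Commute (Equiv.swap x x') (Equiv.swap z z') := by
      intro x x' z z' e1 e2 e3 e4
      refine Equiv.Perm.Disjoint.commute fun t => ?_
      by_cases ht : t = x ∨ t = x'
      · right
        rcases ht with rfl | rfl
        · exact Equiv.swap_apply_of_ne_of_ne e1 e2
        · exact Equiv.swap_apply_of_ne_of_ne e3 e4
      · left
        push Not at ht
        exact Equiv.swap_apply_of_ne_of_ne ht.1 ht.2
    have cUW : Commute U W := d1 h3r3 h3r4 h4r3 h4r4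
    have cU1 : Commute U (Equiv.swap p₁ p₂) := d1 h31 h32 h41 h42
    have cU2 : Commute U (Equiv.swap p₁ r₂) := d1 h31 h3r h41 h4r
    have cW1 : Commute W (Equiv.swap p₁ p₂) := d1 k31 k32 k41 k42
    have cW2 : Commute W (Equiv.swap p₁ r₂) := d1 k31 k3r k41 k4r
    have hprod : (Equiv.swap p₁ p₂ * U) * (Equiv.swap p₁ r₂ * W) = S * (U * W) := by
      rw [show Equiv.swap p₁ p₂ * U * (Equiv.swap p₁ r₂ * W) =
        Equiv.swap p₁ p₂ * (U * Equiv.swap p₁ r₂) * W by group, cU2.eq]
      simp only [S, mul_assoc]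
    have hsq : (S * (U * W)) * (S * (U * W)) = S * S := by
      have cS : Commute (U * W) S := ((cU1.mul_right cU2).mul_left (cW1.mul_right cW2))
      calc S * (U * W) * (S * (U * W)) = S * ((U * W) * S) * (U * W) := by group
        _ = S * S * ((U * W) * (U * W)) := by rw [cS.eq]; group
        _ = S * S := by
          rw [show U * W * (U * W) = U * (W * U) * W by group, ← cUW.eq,
            show U * (U * W) * W = (U * U) * (W * W) by group, Equiv.swap_mul_self, Equiv.swap_mul_self,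
            mul_one, mul_one]
    have h3c : S.IsThreeCycle := Equiv.Perm.isThreeCycle_swap_mul_swap_same h12 h1r h2r
    refine hA3 (S * S) ?_ h3c.isThreeCycle_sq
    rw [← hsq, ← hprod]
    exact B.mul_mem (B.mul_mem hm hm') (B.mul_mem hm hm')
  -- the common point, in both decompositions
  have hq0 : q₀ ∈ Q4 ∧ (h : Equiv.Perm α) q₀ ∈ Q4 :=
    Finset.mem_filter.1 (hq₀ ▸ Finset.mem_singleton_self q₀ :
      q₀ ∈ Q4.filter fun q => (h : Equiv.Perm α) q ∈ Q4)
  have hout : ∀ q ∈ Q4, q ≠ q₀ → ∀ p ∈ Q4, (h : Equiv.Perm α) q ≠ p := by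
    intro q hq hne' p hp e'
    have : q ∈ Q4.filter fun q => (h : Equiv.Perm α) q ∈ Q4 := Finset.mem_filter.2 ⟨hq, e' ▸ hp⟩
    rw [hq₀, Finset.mem_singleton] at this
    exact hne' this
  have split : ∀ q ∈ Q4, ∃ q₂ q₃ q₄, q₂ ∈ Q4 ∧ q₃ ∈ Q4 ∧ q₄ ∈ Q4 ∧ q ≠ q₂ ∧ q ≠ q₃ ∧ q ≠ q₄ ∧
      q₂ ≠ q₃ ∧ q₂ ≠ q₄ ∧ q₃ ≠ q₄ ∧ y = Equiv.swap q q₂ * Equiv.swap q₃ q₄ := by
    have hcom : y = Equiv.swap c d * Equiv.swap a b := by
      refine Equiv.Perm.Disjoint.commute (fun t => ?_)
      by_cases ht : t = a ∨ t = b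
      · right
        rcases ht with rfl | rfl
        · exact Equiv.swap_apply_of_ne_of_ne hac had
        · exact Equiv.swap_apply_of_ne_of_ne hbc hbd
      · left
        push Not at ht
        exact Equiv.swap_apply_of_ne_of_ne ht.1 ht.2
    intro q hq
    simp only [Q4, Finset.mem_insert, Finset.mem_singleton] at hq
    rcases hq with rfl | rfl | rfl | rfl
    · exact ⟨b, c, d, by simp [Q4], by simp [Q4], by simp [Q4], hab, hac, had, hbc, hbd, hcd, rfl⟩
    · exact ⟨a, c, d, by simp [Q4], by simp [Q4], by simp [Q4], hab.symm, hbc, hbd, hac, had, hcd,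
        by rw [Equiv.swap_comm b a]⟩
    · exact ⟨d, a, b, by simp [Q4], by simp [Q4], by simp [Q4], hcd, hac.symm, hbc.symm, had.symm,
        hbd.symm, hab, hcom⟩
    · exact ⟨c, a, b, by simp [Q4], by simp [Q4], by simp [Q4], hcd.symm, had.symm, hbd.symm, hac.symm,
        hbc.symm, hab, by rw [Equiv.swap_comm d c]; exact hcom⟩
  obtain ⟨p₂, p₃, p₄, mp2, mp3, mp4, hp12, hp13, hp14, hp23, hp24, -, hp⟩ := split _ hq0.2
  obtain ⟨r₂, r₃, r₄, mr2, mr3, mr4, hr12, hr13, hr14, hr23, hr24, -, hr⟩ := split q₀ hq0.1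
  set p₁ := (h : Equiv.Perm α) q₀
  have o2 := hout r₂ mr2 hr12.symm
  have o3 := hout r₃ mr3 hr13.symm
  have o4 := hout r₄ mr4 hr14.symm
  have hinj3 := (h : Equiv.Perm α).injective
  refine key p₁ p₂ p₃ p₄ ((h : Equiv.Perm α) r₂) ((h : Equiv.Perm α) r₃) ((h : Equiv.Perm α) r₄)
    hp12 (fun e' => o2 p₁ hq0.2 e'.symm) (fun e' => o2 p₂ mp2 e'.symm) ?_ ?_ ?_ ?_ (hp ▸ hdd) ?_
  · simp only [List.mem_cons, List.not_mem_nil, or_false, not_or]
    exact ⟨hp13.symm, hp23.symm, fun e' => o2 p₃ mp3 e'.symm, fun e' => o3 p₃ mp3 e'.symm,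
      fun e' => o4 p₃ mp3 e'.symm⟩
  · simp only [List.mem_cons, List.not_mem_nil, or_false, not_or]
    exact ⟨hp14.symm, hp24.symm, fun e' => o2 p₄ mp4 e'.symm, fun e' => o3 p₄ mp4 e'.symm,
      fun e' => o4 p₄ mp4 e'.symm⟩
  · simp only [List.mem_cons, List.not_mem_nil, or_false, not_or]
    exact ⟨o3 p₁ hq0.2, o3 p₂ mp2, fun e' => hr23 (hinj3 e').symm⟩
  · simp only [List.mem_cons, List.not_mem_nil, or_false, not_or]
    exact ⟨o4 p₁ hq0.2, o4 p₂ mp2, fun e' => hr24 (hinj3 e').symm⟩
  · have e2 : (h : Equiv.Perm α) * y * (h : Equiv.Perm α)⁻¹ =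
        Equiv.swap p₁ ((h : Equiv.Perm α) r₂) *
          Equiv.swap ((h : Equiv.Perm α) r₃) ((h : Equiv.Perm α) r₄) := by
      rw [hr, ← conj_swap, ← conj_swap]
      group
    exact e2 ▸ hy'

end twentyone

end Cfsg.Agent.U62Plane.Numeric
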