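import Cfsg.Agent.U62Plane.Cover
import Cfsg.Agent.U62Plane.Numeric
import Cfsg.Agent.RecogA.ExtremeStabilizer

/-!
An involution whose centraliser is a perfect double cover of `PSU₆(2)` and which is not weakly
closed: exactly 22 of its conjugates lie in the preimage of the elementary abelian group of a plane.
-/

set_option autoImplicit false
set_option maxHeartbeats 1000000

namespace Cfsg.Agent.U62Plane

open Cov

variable {G : Type*} [Group G] [Finite G] {d : G}

/-- The elementary abelian group inside the group. -/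
def bigA (K : Cov ↥(Subgroup.centralizer ({d} : Set G))) : Subgroup G :=
  K.A.map (Subgroup.centralizer ({d} : Set G)).subtype

variable (K : Cov ↥(Subgroup.centralizer ({d} : Set G))) (hKd : (K.d : G) = d)

theorem mem_bigA {x : G} : x ∈ bigA K ↔ ∃ y ∈ K.A, (y : G) = x := Subgroup.mem_map

theorem card_bigA : Nat.card (bigA K) = 1024 := by
  rw [bigA, Subgroup.card_map_of_injective (Subgroup.subtype_injective _), K.card_A]

theorem bigA_comm {x y : G} (hx : x ∈ bigA K) (hy : y ∈ bigA K) : x * y = y * x := by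
  obtain ⟨u, hu, rfl⟩ := (mem_bigA K).1 hx
  obtain ⟨v, hv, rfl⟩ := (mem_bigA K).1 hy
  exact congrArg Subtype.val (K.elem_A.1 u hu v hv)

theorem bigA_sq {x : G} (hx : x ∈ bigA K) : x * x = 1 := by
  obtain ⟨u, hu, rfl⟩ := (mem_bigA K).1 hx
  exact congrArg Subtype.val (K.elem_A.2 u hu)

include hKd in
theorem d_mem : d ∈ bigA K := (mem_bigA K).2 ⟨K.d, K.d_mem_A, hKd⟩

include hKd in
theorem mem_C_of_commute {g : G} (h : ∀ x ∈ bigA K, g * x = x * g) :
    ∃ hg : g ∈ Subgroup.centralizer ({d} : Set G), (⟨g, hg⟩ : ↥(Subgroup.centralizer ({d} : Set G))) ∈ K.A := by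
  have hg : g ∈ Subgroup.centralizer ({d} : Set G) :=
    Subgroup.mem_centralizer_singleton_iff.2 (h d (d_mem K hKd))
  exact ⟨hg, K.centralizer_A fun a ha => Subtype.ext (h a ((mem_bigA K).2 ⟨a, ha, rfl⟩))⟩

theorem normalizer_iff {g : G} :
    g ∈ Subgroup.normalizer (bigA K : Set G) ↔ ∀ x ∈ bigA K, g * x * g⁻¹ ∈ bigA K := by
  refine ⟨fun hg x hx => (Subgroup.mem_normalizer_iff.1 hg x).1 hx, fun h => ?_⟩
  rw [Subgroup.mem_normalizer_iff]
  have e : (bigA K).map (MulAut.conj g).toMonoidHom = bigA K := by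
    refine Subgroup.eq_of_le_of_card_ge (fun y hy => ?_) ?_
    · obtain ⟨x, hx, rfl⟩ := hy; exact h x hx
    · rw [Subgroup.card_map_of_injective (MulAut.conj g).injective]
  refine fun x => ⟨h x, fun hx => ?_⟩
  obtain ⟨y, hy, he⟩ := (show g * x * g⁻¹ ∈ (bigA K).map (MulAut.conj g).toMonoidHom by rw [e]; exact hx)
  obtain rfl : y = x := (MulAut.conj g).injective he
  exact hy

theorem N_iff {y : ↥(Subgroup.centralizer ({d} : Set G))} :
    y ∈ K.N ↔ (y : G) ∈ Subgroup.normalizer (bigA K : Set G) := by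
  rw [K.mem_N_iff, normalizer_iff]
  constructor
  · intro h x hx
    obtain ⟨u, hu, rfl⟩ := (mem_bigA K).1 hx
    exact (mem_bigA K).2 ⟨_, h u hu, rfl⟩
  · intro h a ha
    obtain ⟨u, hu, he⟩ := (mem_bigA K).1 (h a ((mem_bigA K).2 ⟨a, ha, rfl⟩))
    rwa [show y * a * y⁻¹ = u from Subtype.ext he.symm]

include hKd in
theorem transitive {x : G} (hx : x ∈ bigA K) (hc : IsConj d x) :
    ∃ n ∈ Subgroup.normalizer (bigA K : Set G), n * d * n⁻¹ = x := by
  obtain ⟨g, hg⟩ := isConj_iff.1 hc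
  let C := Subgroup.centralizer ({d} : Set G)
  set X := ((bigA K).map (MulAut.conj g⁻¹).toMonoidHom).subgroupOf C
  have hXle : (bigA K).map (MulAut.conj g⁻¹).toMonoidHom ≤ C := by
    rintro _ ⟨y, hy, rfl⟩
    rw [Subgroup.mem_centralizer_singleton_iff]
    simp only [MulEquiv.coe_toMonoidHom, MulAut.conj_apply, inv_inv]
    have h := bigA_comm K hy hx
    rw [← hg] at h
    calc g⁻¹ * y * g * d = g⁻¹ * (y * (g * d * g⁻¹)) * g := by group
      _ = g⁻¹ * (g * d * g⁻¹ * y) * g := by rw [h]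
      _ = d * (g⁻¹ * y * g) := by group
  obtain ⟨c, hc'⟩ := K.conj_eq_A (X := X)
    (fun u hu v hv => Subtype.ext (by
      obtain ⟨u', hu', eu⟩ := hu
      obtain ⟨v', hv', ev⟩ := hv
      show (u : G) * v = v * u
      rw [show (u : G) = MulAut.conj g⁻¹ u' from eu.symm, show (v : G) = MulAut.conj g⁻¹ v' from ev.symm,
        ← map_mul, bigA_comm K hu' hv', map_mul]))
    (fun u hu => Subtype.ext (by
      obtain ⟨u', hu', eu⟩ := hu
      show (u : G) * u = 1
      rw [show (u : G) = MulAut.conj g⁻¹ u' from eu.symm, ← map_mul, bigA_sq K hu', map_one]))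
    (by rw [Nat.card_congr (Subgroup.subgroupOfEquivOfLe hXle).toEquiv,
      Subgroup.card_map_of_injective (MulAut.conj g⁻¹).injective, card_bigA])
  have hm : (c : G) * g⁻¹ ∈ Subgroup.normalizer (bigA K : Set G) := by
    rw [normalizer_iff]
    intro y hy
    have h1 : (⟨g⁻¹ * y * g⁻¹⁻¹, hXle ⟨y, hy, rfl⟩⟩ : ↥C) ∈ X := ⟨y, hy, rfl⟩
    have h2 : c * ⟨g⁻¹ * y * g⁻¹⁻¹, hXle ⟨y, hy, rfl⟩⟩ * c⁻¹ ∈ K.A := hc' ▸ ⟨_, h1, rfl⟩
    refine (mem_bigA K).2 ⟨_, h2, ?_⟩
    show (c : G) * (g⁻¹ * y * g⁻¹⁻¹) * (c : G)⁻¹ = _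
    group
  refine ⟨g * (c : G)⁻¹, ?_, ?_⟩
  · have := inv_mem hm
    rwa [mul_inv_rev, inv_inv] at this
  · have hcd : (c : G)⁻¹ * d = d * (c : G)⁻¹ :=
      (Commute.inv_left (show Commute (c : G) d from Subgroup.mem_centralizer_singleton_iff.1 c.2)).eq
    calc g * (c : G)⁻¹ * d * (g * (c : G)⁻¹)⁻¹ = g * ((c : G)⁻¹ * d) * c * g⁻¹ := by group
      _ = g * (d * (c : G)⁻¹) * c * g⁻¹ := by rw [hcd]
      _ = x := by rw [← hg]; group

theorem card_gl : Nat.card (GL (Fin 10) (ZMod 2)) = 366440137299948128422802227200 := by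
  haveI : Fact (Nat.Prime 2) := ⟨Nat.prime_two⟩
  rw [Matrix.card_GL_field, ZMod.card]
  simp [Fin.prod_univ_succ]

include hKd in
theorem ncard_conj (hnwc : ∃ g : G, g * d * g⁻¹ ∈ Subgroup.centralizer ({d} : Set G) ∧ g * d * g⁻¹ ≠ d) :
    {x : G | x ∈ bigA K ∧ IsConj d x}.ncard = 22 := by
  classical
  haveI : Fact (Nat.Prime 2) := ⟨Nat.prime_two⟩
  let C := Subgroup.centralizer ({d} : Set G)
  set A := bigA K
  set O := {x : G | x ∈ A ∧ IsConj d x}
  set NG := Subgroup.normalizer (A : Set G)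
  have hd1 : d ≠ 1 := fun e => K.hd1 (Subtype.ext (hKd.trans e))
  have hO1 : (1 : G) ∉ O := fun h => hd1 (isConj_one_left.1 h.2)
  have hOinv : ∀ g ∈ NG, ∀ x ∈ O, g * x * g⁻¹ ∈ O := fun g hg x hx =>
    ⟨(normalizer_iff K).1 hg x hx.1, hx.2.trans (isConj_iff.2 ⟨g, rfl⟩)⟩
  -- the action on the elementary abelian group
  letI : CommGroup ↥A :=
    { (inferInstance : Group ↥A) with mul_comm := fun a b => Subtype.ext (bigA_comm K a.2 b.2) }
  let φ : ↥NG →* MulAut ↥A := Subgroup.normalizerMonoidHom A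
  have hφ : ∀ (g : ↥NG) (a : ↥A), ((φ g a : ↥A) : G) = g * a * (g : G)⁻¹ := fun g a => rfl
  set B := φ.range
  have hBsmul : ∀ (b : ↥B) (a : ↥A), b • a = (b : MulAut ↥A) a := fun b a => rfl
  haveI : FaithfulSMul ↥B ↥A := ⟨fun {b c} h => Subtype.ext (MulEquiv.ext fun a => h a)⟩
  -- the stabiliser of `d`
  letI : MulAction ↥NG G :=
    MulAction.compHom G ((MulAut.conj : G →* MulAut G).comp NG.subtype)
  have hsmul : ∀ (g : ↥NG) (x : G), g • x = g * x * (g : G)⁻¹ := fun g x => rfl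
  have horb : MulAction.orbit ↥NG d = O := by
    ext x
    constructor
    · rintro ⟨g, rfl⟩
      exact hOinv g g.2 d ⟨d_mem K hKd, IsConj.refl d⟩
    · rintro ⟨hx, hxc⟩
      obtain ⟨n, hn, he⟩ := transitive K hKd hx hxc
      exact ⟨⟨n, hn⟩, he⟩
  have hstab : Nat.card (MulAction.stabilizer ↥NG d) = 20643840 := by
    rw [← K.card_N]
    refine Nat.card_congr
      ⟨fun g => ⟨⟨g.1.1, Subgroup.mem_centralizer_singleton_iff.2 (mul_inv_eq_iff_eq_mul.1 g.2)⟩,
          (N_iff K).2 g.1.2⟩,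
        fun y => ⟨⟨y.1.1, (N_iff K).1 y.2⟩, mul_inv_eq_iff_eq_mul.2
          (Subgroup.mem_centralizer_singleton_iff.1 y.1.2)⟩,
        fun g => rfl, fun y => rfl⟩
  have hNG : Nat.card ↥NG = O.ncard * 20643840 := by
    rw [← (MulAction.stabilizer ↥NG d).card_mul_index, hstab, MulAction.index_stabilizer, horb]
    ring
  have hker : Nat.card φ.ker = 1024 := by
    rw [← card_bigA K, show φ.ker = _ from Subgroup.normalizerMonoidHom_ker A,
      Nat.card_congr (Subgroup.subgroupOfEquivOfLe (Subgroup.centralizer_le_normalizer _)).toEquiv]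
    congr 2
    refine le_antisymm (fun g hg => ?_) fun g hg => Subgroup.mem_centralizer_iff.2 fun a ha =>
      bigA_comm K ha hg
    obtain ⟨hgC, hgA⟩ := mem_C_of_commute K hKd fun a ha => (Subgroup.mem_centralizer_iff.1 hg a ha).symm
    exact (mem_bigA K).2 ⟨_, hgA, rfl⟩
  have hB : Nat.card ↥B = O.ncard * 20160 := by
    have h := Subgroup.card_eq_card_quotient_mul_card_subgroup φ.ker
    rw [Nat.card_congr (QuotientGroup.quotientKerEquivRange φ).toEquiv, hker, hNG] at h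
    show Nat.card φ.range = _
    omega
  have hAc : Nat.card ↥A = 1024 := card_bigA K
  have hGL : Nat.card ↥B ∣ 366440137299948128422802227200 := by
    obtain ⟨ψ, hψ⟩ := RecogA.exists_matrix_hom_of_mulAut (F := ↥A) (p := 2) (e := 10)
      (fun a => by rw [pow_two]; exact Subtype.ext (bigA_sq K a.2)) (by rw [hAc]; norm_num) B.subtype
    rw [← card_gl]
    refine Subgroup.card_dvd_of_injective ψ ((MonoidHom.ker_eq_bot_iff ψ).1 ?_)
    rw [hψ]
    exact (MonoidHom.ker_eq_bot_iff _).2 B.subtype_injective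
  -- the conjugates inside the double cover
  set OC := {y : ↥C | (y : G) ∈ O}
  have hOA : OC ⊆ K.A := fun y hy => by
    obtain ⟨u, hu, he⟩ := (mem_bigA K).1 hy.1
    rwa [show y = u from Subtype.ext he.symm]
  have hON : ∀ g ∈ K.N, ∀ y ∈ OC, g * y * g⁻¹ ∈ OC := fun g hg y hy => hOinv g ((N_iff K).1 hg) y hy
  have hncard : OC.ncard = O.ncard := by
    refine Set.ncard_congr (fun y _ => (y : G)) (fun y hy => hy) (fun a b _ _ h => Subtype.ext h) ?_
    intro x hx
    obtain ⟨u, _, rfl⟩ := (mem_bigA K).1 hx.1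
    exact ⟨u, hx, rfl⟩
  have hdOC : K.d ∈ OC := ⟨by rw [hKd]; exact d_mem K hKd, by rw [hKd]⟩
  have hf0 : (K.fib OC 0).ncard = 1 := by
    rw [show K.fib OC 0 = {K.d} from Set.eq_singleton_iff_unique_mem.2
      ⟨⟨hdOC, by rw [K.pi_d, eU_zero]⟩, fun y hy => ?_⟩, Set.ncard_singleton]
    rcases (K.hker y).1 (hy.2.trans eU_zero) with rfl | rfl
    · exact absurd (show (1 : G) ∈ O from hy.1) hO1
    · rfl
  have hcount := K.count hOA hON
  rw [hf0, hncard] at hcount
  have hla := K.ncard_fib_le OC (orbN 0)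
  have hlb := K.ncard_fib_le OC (orbN 21)
  have hlc := K.ncard_fib_le OC (orbN 231)
  set a := (K.fib OC (orbN 0)).ncard
  set b := (K.fib OC (orbN 21)).ncard
  set c := (K.fib OC (orbN 231)).ncard
  have hne1 : O.ncard ≠ 1 := by
    intro h1
    obtain ⟨g, hgC, hgne⟩ := hnwc
    have hsq : (⟨g * d * g⁻¹, hgC⟩ : ↥C) * ⟨g * d * g⁻¹, hgC⟩ = 1 := by
      refine Subtype.ext ?_
      show g * d * g⁻¹ * (g * d * g⁻¹) = 1
      rw [show g * d * g⁻¹ * (g * d * g⁻¹) = g * (d * d) * g⁻¹ by group, ← hKd,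
        show (K.d : G) * K.d = 1 from congrArg Subtype.val K.hd]
      group
    obtain ⟨h, hh⟩ := K.exists_conj_A hsq
    have hx : (h : G) * (g * d * g⁻¹) * (h : G)⁻¹ ∈ O :=
      ⟨(mem_bigA K).2 ⟨_, hh, rfl⟩, isConj_iff.2 ⟨(h : G) * g, by group⟩⟩
    obtain ⟨v, hv⟩ := Set.ncard_eq_one.1 h1
    have e1 : d = v := Set.mem_singleton_iff.1 (hv ▸ (⟨d_mem K hKd, IsConj.refl d⟩ : d ∈ O))
    have e2 := Set.mem_singleton_iff.1 (hv ▸ hx)
    rw [← e1, mul_inv_eq_iff_eq_mul,
      ← (Subgroup.mem_centralizer_singleton_iff.1 h.2 : (h : G) * d = d * h)] at e2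
    exact hgne (mul_left_cancel e2)
  have hcases : O.ncard = 22 ∨ O.ncard = 512 ∨ O.ncard = 561 ∨ O.ncard = 792 ∨ O.ncard = 1023 := by
    have hd : O.ncard ∣ 366440137299948128422802227200 := dvd_trans ⟨20160, hB⟩ hGL
    rw [hcount] at hd hne1 ⊢
    interval_cases a <;> interval_cases b <;> interval_cases c <;> simp at hd hne1 ⊢
  rcases hcases with h | h | h | h | h
  · exact h
  · -- 512
    exfalso
    rw [h] at hB hcount
    have hab : a = 1 ∧ b = 1 ∧ c = 1 := by omega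
    obtain ⟨t, ht, htne⟩ : ∃ t : ↥C, K.π t = eU (orbN 0) ∧ t ∉ OC := by
      obtain ⟨u, hu⟩ := K.surj (eU (orbN 0))
      by_cases huO : u ∈ OC
      · refine ⟨u * K.d, by rw [map_mul, hu, K.pi_d, mul_one], fun h2 => ?_⟩
        obtain ⟨v, hv⟩ := Set.ncard_eq_one.1 (show (K.fib OC (orbN 0)).ncard = 1 from hab.1)
        have e1 : u = v := Set.mem_singleton_iff.1 (hv ▸ (⟨huO, hu⟩ : u ∈ K.fib OC (orbN 0)))
        have e2 : u * K.d = v := Set.mem_singleton_iff.1
          (hv ▸ (⟨h2, by rw [map_mul, hu, K.pi_d, mul_one]⟩ : u * K.d ∈ K.fib OC (orbN 0)))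
        exact K.hd1 (mul_eq_left.1 (e2.trans e1.symm))
      · exact ⟨u, hu, huO⟩
    have htA : (t : G) ∈ A := (mem_bigA K).2 ⟨t, K.mem_A.2 ⟨_, ht.symm⟩, rfl⟩
    have ht1 : (t : G) ≠ 1 := fun e => by
      rw [show t = 1 from Subtype.ext e, map_one, ← eU_zero] at ht
      exact absurd (congrArg Fin.val (eU_inj ht)) (by rw [show (orbN 0 : ℕ) = 1 from orbT_reps.1]; norm_num)
    set T := MulAction.orbit ↥B (⟨t, htA⟩ : ↥A)
    set TC := {y : ↥C | ∃ v : ↥A, v ∈ T ∧ (v : G) = y}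
    have hTinv : ∀ (g : ↥NG) (v : ↥A), v ∈ T → φ g v ∈ T := by
      rintro g _ ⟨b', rfl⟩
      exact ⟨⟨φ g, g, rfl⟩ * b', mul_smul _ _ _⟩
    have hTA : TC ⊆ K.A := fun y ⟨v, _, hv⟩ => by
      obtain ⟨u, hu, he⟩ := (mem_bigA K).1 v.2
      rwa [show y = u from Subtype.ext (hv.symm.trans he.symm)]
    have hTN : ∀ g ∈ K.N, ∀ y ∈ TC, g * y * g⁻¹ ∈ TC := by
      rintro g hg y ⟨v, hv, hvy⟩
      exact ⟨φ ⟨g, (N_iff K).1 hg⟩ v, hTinv _ _ hv, by rw [hφ, hvy]; rfl⟩
    have hdisj : Disjoint OC TC := by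
      rw [Set.disjoint_left]
      rintro y hy ⟨v, ⟨b', rfl⟩, hv⟩
      obtain ⟨g, hg⟩ := b'.2
      apply htne
      have h2 := hOinv _ (NG.inv_mem g.2) y hy
      rw [← hv] at h2
      change (g : G)⁻¹ * (((b' : MulAut ↥A) ⟨t, htA⟩ : ↥A) : G) * (g : G)⁻¹⁻¹ ∈ O at h2
      rw [← hg, hφ] at h2
      show (t : G) ∈ O
      rwa [show (g : G)⁻¹ * ((g : G) * (t : G) * (g : G)⁻¹) * (g : G)⁻¹⁻¹ = (t : G) by group] at h2
    have htTC : t ∈ TC := ⟨⟨t, htA⟩, MulAction.mem_orbit_self _, rfl⟩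
    have hT0 : K.fib TC 0 = ∅ := by
      rw [Set.eq_empty_iff_forall_notMem]
      rintro y ⟨hy, hy0⟩
      rcases (K.hker y).1 (hy0.trans eU_zero) with rfl | rfl
      · obtain ⟨v, ⟨b', rfl⟩, hv⟩ := hy
        have hv1 : b' • (⟨t, htA⟩ : ↥A) = 1 := Subtype.ext hv
        have h3 := congrArg (fun z => b'⁻¹ • z) hv1
        simp only [inv_smul_smul, smul_one] at h3
        exact ht1 (congrArg Subtype.val h3)
      · exact Set.disjoint_left.1 hdisj hdOC hy
    have hcT := K.count hTA hTN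
    rw [hT0, Set.ncard_empty, zero_add] at hcT
    have hvC : ∀ v : ↥A, (v : G) ∈ Subgroup.centralizer ({d} : Set G) := fun v => by
      obtain ⟨u, hu, he⟩ := (mem_bigA K).1 v.2
      rw [← he]; exact u.2
    have hTcard : TC.ncard = T.ncard := by
      let up : ↥A → ↥(Subgroup.centralizer ({d} : Set G)) := fun v => ⟨v, hvC v⟩
      have himg : TC = up '' T := by
        ext y
        constructor
        · rintro ⟨v, hv, hvy⟩; exact ⟨v, hv, Subtype.ext hvy⟩
        · rintro ⟨v, hv, rfl⟩; exact ⟨v, hv, rfl⟩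
      rw [himg]
      exact Set.ncard_image_of_injective T fun u v h => Subtype.ext (congrArg Subtype.val h :)
    have hTdvd : TC.ncard ∣ 512 * 20160 := by
      rw [hTcard, ← hB, ← MulAction.index_stabilizer]
      exact Subgroup.index_dvd_card _
    have h1a := K.fib_le_one_of_disjoint hdisj (orbN 0)
    have h1b := K.fib_le_one_of_disjoint hdisj (orbN 21)
    have h1c := K.fib_le_one_of_disjoint hdisj (orbN 231)
    have ha' : 1 ≤ (K.fib TC (orbN 0)).ncard :=
      (Set.ncard_pos (Set.toFinite _)).2 ⟨t, htTC, ht⟩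
    set a' := (K.fib TC (orbN 0)).ncard with ha'def
    set b'' := (K.fib TC (orbN 21)).ncard with hb'def
    set c'' := (K.fib TC (orbN 231)).ncard with hc'def
    have habc : a' = 1 ∧ b'' = 0 ∧ c'' = 0 := by
      have hx1 : a' = 1 := by omega
      have hx2 : b'' ≤ 1 := by omega
      have hx3 : c'' ≤ 1 := by omega
      rw [hcT, hx1] at hTdvd
      interval_cases b'' <;> interval_cases c'' <;> first | exact ⟨hx1, rfl, rfl⟩ | norm_num at hTdvd
    have h21 : TC.ncard = 21 := by rw [hcT, habc.1, habc.2.1, habc.2.2]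
    have hfib : ∀ i < 511, (K.fib TC (orbN i)).ncard = if i < 21 then 1 else 0 := by
      intro i hi
      rw [K.fib_orb hTN hi, ← ha'def, ← hb'def, ← hc'def, habc.1, habc.2.1, habc.2.2]
      split
      · rfl
      · split <;> rfl
    -- each member lies over one point
    have hlev : ∀ y ∈ TC, ∃ i < 21, K.π y = eU (orbN i) := by
      intro y hy
      obtain ⟨n, hn⟩ := K.mem_A.1 (hTA hy)
      have hn' : n ∈ insert (0 : Fin 512) ((Finset.range 511).image orbN) := by
        rw [← univ_eq]; exact Finset.mem_univ n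
      rcases Finset.mem_insert.1 hn' with rfl | hn'
      · exact absurd (show y ∈ K.fib TC 0 from ⟨hy, hn.symm⟩) (by rw [hT0]; exact Set.notMem_empty y)
      · obtain ⟨i, hi, rfl⟩ := Finset.mem_image.1 hn'
        rw [Finset.mem_range] at hi
        by_contra hno
        push Not at hno
        have h0 := hfib i hi
        rw [if_neg (fun h21 => hno i h21 hn.symm)] at h0
        have : 0 < (K.fib TC (orbN i)).ncard := (Set.ncard_pos (Set.toFinite _)).2 ⟨y, hy, hn.symm⟩
        omega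
    have huniq : ∀ y ∈ TC, ∀ z ∈ TC, K.π y = K.π z → y = z := by
      intro y hy z hz hyz
      obtain ⟨i, hi, he⟩ := hlev y hy
      obtain ⟨w, hw⟩ := Set.ncard_eq_one.1 ((hfib i (by omega)).trans (if_pos hi))
      have e1 : y = w := Set.mem_singleton_iff.1 (hw ▸ (⟨hy, he⟩ : y ∈ K.fib TC (orbN i)))
      have e2 : z = w := Set.mem_singleton_iff.1 (hw ▸ (⟨hz, hyz ▸ he⟩ : z ∈ K.fib TC (orbN i)))
      rw [e1, e2]
    -- they generate
    set H := Subgroup.closure TC
    have hHA : H ≤ K.A := (Subgroup.closure_le _).2 hTA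
    have hmap : H.map K.π = EU := by
      refine le_antisymm (by rintro _ ⟨y, hy, rfl⟩; exact hHA hy) (EU_le_closure.trans ?_)
      rw [Subgroup.closure_le]
      rintro _ ⟨n, hn, rfl⟩
      obtain ⟨i, hi, hie⟩ : ∃ i < 21, orbN i = n := by
        obtain ⟨i, hi, hie⟩ := List.getElem_of_mem hn
        have hi' : i < 21 := hi
        refine ⟨i, hi', Fin.ext ?_⟩
        rw [← (ptN_eq i hi').1, (ptN_eq i hi').2, List.getD_eq_getElem _ _ hi]
        exact hie
      obtain ⟨y, hy⟩ := Set.nonempty_of_ncard_ne_zero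
        (show (K.fib TC (orbN i)).ncard ≠ 0 by rw [hfib i (by omega), if_pos hi]; norm_num)
      exact ⟨y, Subgroup.subset_closure hy.1, hy.2.trans (congrArg eU hie)⟩
    have hHinv : ∀ g ∈ K.N, ∀ y ∈ H, g * y * g⁻¹ ∈ H := by
      intro g hg y hy
      have : H.map (MulAut.conj g).toMonoidHom ≤ H := by
        rw [MonoidHom.map_closure, Subgroup.closure_le]
        rintro _ ⟨z, hz, rfl⟩
        exact Subgroup.subset_closure (hTN g hg z hz)
      exact this ⟨y, hy, rfl⟩
    have hdH : K.d ∈ H := by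
      by_contra hdH
      refine K.nonsplit hHA ?_ hdH hHinv
      rw [← card_EU, ← hmap]
      refine (Nat.card_image_of_injOn (f := K.π) fun x hx y hy hxy => ?_).symm
      rcases K.eq_or hxy with e | e
      · exact e
      · exact absurd (by
          have := H.mul_mem (H.inv_mem hy) hx
          rwa [e, inv_mul_cancel_left] at this) hdH
    have hHeq : H = K.A := by
      refine le_antisymm hHA fun x hx => ?_
      obtain ⟨y, hy, he⟩ : K.π x ∈ H.map K.π := hmap ▸ hx
      rcases K.eq_or he.symm with rfl | rfl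
      · exact hy
      · exact H.mul_mem hy hdH
    -- the permutation group of degree 21
    set α := ↥T
    let perm : ↥B →* Equiv.Perm α := MulAction.toPermHom ↥B α
    have hperm : Function.Injective perm := by
      rw [injective_iff_map_eq_one]
      intro b' hb'
      refine FaithfulSMul.eq_of_smul_eq_smul fun v : ↥A => ?_
      rw [one_smul]
      have hfix : ∀ y : ↥C, y ∈ H → ∀ v : ↥A, (v : G) = y → b' • v = v := by
        intro y hy
        induction hy using Subgroup.closure_induction with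
        | mem y hy =>
          obtain ⟨u, hu, huy⟩ := hy
          intro v hv
          obtain rfl : v = u := Subtype.ext (hv.trans huy.symm)
          exact congrArg Subtype.val (congrArg (fun p : Equiv.Perm α => p ⟨v, hu⟩) hb')
        | one =>
          intro v hv
          obtain rfl : v = 1 := Subtype.ext hv
          exact smul_one b'
        | mul y z hy' hz' h1 h2 =>
          intro v hv
          have hyA : (y : G) ∈ A := (mem_bigA K).2 ⟨y, hHA hy', rfl⟩
          have hzA : (z : G) ∈ A := (mem_bigA K).2 ⟨z, hHA hz', rfl⟩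
          obtain rfl : v = (⟨y, hyA⟩ : ↥A) * ⟨z, hzA⟩ := Subtype.ext hv
          rw [smul_mul', h1 _ rfl, h2 _ rfl]
        | inv y hy' h1 =>
          intro v hv
          have hyA : (y : G) ∈ A := (mem_bigA K).2 ⟨y, hHA hy', rfl⟩
          obtain rfl : v = (⟨y, hyA⟩ : ↥A)⁻¹ := Subtype.ext hv
          rw [smul_inv', h1 _ rfl]
      obtain ⟨u, hu, hue⟩ := (mem_bigA K).1 v.2
      exact hfix u (hHeq ▸ hu) v hue.symm
    haveI := Fintype.ofFinite α
    have hα : Fintype.card α = 21 := by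
      rw [← Nat.card_eq_fintype_card, Nat.card_coe_set_eq, ← hTcard, h21]
    have hBimg : Nat.card perm.range = 512 * 20160 := by
      rw [← hB]
      exact (Nat.card_congr (MonoidHom.ofInjective hperm).toEquiv).symm
    refine Numeric.perm_twentyone hα perm.range ?_ ?_ ?_
    · rw [MulAction.is_two_pretransitive_iff]
      intro x y x' y' hxy hxy'
      have lift : ∀ v : α, ∃ u ∈ TC, (u : G) = ((v : ↥A) : G) := by
        intro v
        obtain ⟨u, _, he⟩ := (mem_bigA K).1 (v : ↥A).2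
        exact ⟨u, ⟨v, v.2, he.symm⟩, he⟩
      have linj : ∀ {v w : α} {u : ↥C}, (u : G) = ((v : ↥A) : G) → (u : G) = ((w : ↥A) : G) → v = w :=
        fun h1 h2 => Subtype.ext (Subtype.ext (h1.symm.trans h2))
      obtain ⟨ux, hux, ex⟩ := lift x
      obtain ⟨uy, huy, ey⟩ := lift y
      obtain ⟨ux', hux', ex'⟩ := lift x'
      obtain ⟨uy', huy', ey'⟩ := lift y'
      obtain ⟨i, hi, hπx⟩ := hlev ux hux
      obtain ⟨j, hj, hπy⟩ := hlev uy huy
      obtain ⟨i', hi', hπx'⟩ := hlev ux' hux'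
      obtain ⟨j', hj', hπy'⟩ := hlev uy' huy'
      have hij : i ≠ j := fun e => hxy (linj ex ((huniq ux hux uy huy (by rw [hπx, hπy, e])) ▸ ey))
      have hij' : i' ≠ j' := fun e =>
        hxy' (linj ex' ((huniq ux' hux' uy' huy' (by rw [hπx', hπy', e])) ▸ ey'))
      obtain ⟨g, hg, hg1, hg2⟩ := K.pairs hi hj hij hi' hj' hij'
      rw [(ptN_eq i hi).1, (ptN_eq i' hi').1, ← hπx, ← hπx'] at hg1
      rw [(ptN_eq j hj).1, (ptN_eq j' hj').1, ← hπy, ← hπy'] at hg2
      have e1 := huniq _ (hTN g hg ux hux) ux' hux' (by rw [map_mul, map_mul, map_inv]; exact hg1)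
      have e2 := huniq _ (hTN g hg uy huy) uy' huy' (by rw [map_mul, map_mul, map_inv]; exact hg2)
      refine ⟨⟨perm ⟨φ ⟨g, (N_iff K).1 hg⟩, ⟨_, rfl⟩⟩, ⟨_, rfl⟩⟩, ?_, ?_⟩
      · refine Subtype.ext (Subtype.ext ?_)
        show (g : G) * ((x : ↥A) : G) * (g : G)⁻¹ = ((x' : ↥A) : G)
        rw [← ex, ← ex', ← e1]; rfl
      · refine Subtype.ext (Subtype.ext ?_)
        show (g : G) * ((y : ↥A) : G) * (g : G)⁻¹ = ((y' : ↥A) : G)
        rw [← ey, ← ey', ← e2]; rfl
    · rw [hBimg]; norm_num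
    · rw [hBimg]; decide +kernel
  · exact (Numeric.not_561 hAc (by rw [hB, h])).elim
  · -- 792
    exfalso
    rw [h] at hB hcount
    have ha1 : a = 1 := by omega
    obtain ⟨f, hfN, hfA, hf5, hfpres, hffix⟩ := K.five_fix
    set fN : ↥NG := ⟨f, (N_iff K).1 hfN⟩
    set fB : ↥B := ⟨φ fN, fN, rfl⟩
    have hord : orderOf fB = 5 := by
      haveI : Fact (Nat.Prime 5) := ⟨by norm_num⟩
      refine orderOf_eq_prime (Subtype.ext (MulEquiv.ext fun v => Subtype.ext ?_)) fun e => hfA ?_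
      · show ((φ fN ^ 5) v : G) = v
        rw [← map_pow, hφ]
        show ((f ^ 5 : ↥C) : G) * v * ((f ^ 5 : ↥C) : G)⁻¹ = v
        rw [bigA_comm K ((mem_bigA K).2 ⟨_, hf5, rfl⟩) v.2, mul_inv_cancel_right]
      · refine K.centralizer_A fun y hy => Subtype.ext ?_
        have h2 : φ fN ⟨y, (mem_bigA K).2 ⟨y, hy, rfl⟩⟩ = ⟨y, (mem_bigA K).2 ⟨y, hy, rfl⟩⟩ :=
          congrArg (fun z : ↥B => (z : MulAut ↥A) ⟨y, (mem_bigA K).2 ⟨y, hy, rfl⟩⟩) e
        have h3 := congrArg Subtype.val h2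
        rw [hφ] at h3
        exact mul_inv_eq_iff_eq_mul.1 h3
    refine Numeric.not_792 hAc hB {v : ↥A | (v : G) ∈ O} ?_ (fun h1 => hO1 h1) ⟨fB, hord, ?_⟩
    · rintro ⟨_, g, rfl⟩ v hv
      exact hOinv g g.2 v hv
    · obtain ⟨t, ht⟩ := Set.ncard_eq_one.1 (show (K.fib OC (orbN 0)).ncard = 1 from ha1)
      have htm : t ∈ K.fib OC (orbN 0) := ht ▸ Set.mem_singleton t
      have htfix : f * t * f⁻¹ = t :=
        Set.mem_singleton_iff.1 (ht ▸ (⟨hON f hfN t htm.1, hfpres t htm.2⟩ : f * t * f⁻¹ ∈ K.fib OC (orbN 0)))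
      have hdt : K.d ≠ t := fun e => by
        have h2 := htm.2
        rw [← e, K.pi_d, ← eU_zero] at h2
        exact absurd (congrArg Fin.val (eU_inj h2)) (by rw [show (orbN 0 : ℕ) = 1 from orbT_reps.1]; norm_num)
      have e : {v : ↥A | (v : G) ∈ O} ∩ {v | fB • v = v} =
          {⟨d, d_mem K hKd⟩, ⟨(t : G), htm.1.1⟩} := by
        ext v
        constructor
        · rintro ⟨hvO, hvf⟩
          obtain ⟨u, hu, hue⟩ := (mem_bigA K).1 v.2
          have hfu : f * u * f⁻¹ = u := by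
            refine Subtype.ext ?_
            show (f : G) * u * (f : G)⁻¹ = u
            rw [hue]
            exact congrArg Subtype.val hvf
          rcases hffix u hu hfu with h2 | h2
          · rcases (K.hker u).1 h2 with rfl | rfl
            · exact absurd (show (1 : G) ∈ O by rw [show (1 : G) = v from hue]; exact hvO) hO1
            · exact Or.inl (Subtype.ext (hue.symm.trans hKd))
          · have : u = t := Set.mem_singleton_iff.1
              (ht ▸ (⟨show (u : G) ∈ O by rw [hue]; exact hvO, h2⟩ : u ∈ K.fib OC (orbN 0)))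
            exact Or.inr (Subtype.ext (hue.symm.trans (congrArg Subtype.val this)))
        · rintro (rfl | rfl)
          · refine ⟨⟨d_mem K hKd, IsConj.refl d⟩, Subtype.ext ?_⟩
            show (f : G) * d * (f : G)⁻¹ = d
            exact mul_inv_eq_iff_eq_mul.2 (Subgroup.mem_centralizer_singleton_iff.1 f.2)
          · exact ⟨htm.1, Subtype.ext (show (f : G) * (t : G) * (f : G)⁻¹ = (t : G) from congrArg Subtype.val htfix)⟩
      rw [e]
      exact Set.ncard_pair fun e2 => hdt (Subtype.ext (hKd.trans (congrArg Subtype.val e2)))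
  · -- 1023
    exfalso
    rw [h] at hB
    refine Numeric.not_1023 hAc hB ⟨d, d_mem K hKd⟩ ?_ ?_
    · intro v hv
      have hO : O = (A : Set G) \ {1} := by
        refine Set.eq_of_subset_of_ncard_le (fun x hx => ⟨hx.1, fun e => hO1 (e ▸ hx)⟩) ?_ (Set.toFinite _)
        rw [Set.ncard_sdiff_singleton_of_mem A.one_mem, h, ← Nat.card_coe_set_eq]
        exact le_of_eq (by rw [show Nat.card ↥(A : Set G) = 1024 from hAc])
      have hvO : (v : G) ∈ O := by
        rw [hO]; exact ⟨v.2, fun e => hv (Subtype.ext e)⟩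
      obtain ⟨g, hg⟩ := (horb ▸ hvO : (v : G) ∈ MulAction.orbit ↥NG d)
      refine ⟨(⟨φ g, g, rfl⟩ : ↥B)⁻¹, ?_⟩
      rw [inv_smul_eq_iff]
      exact Subtype.ext hg.symm
    · intro b' hb' hfix
      obtain ⟨g, hg⟩ := b'.2
      have hgC : (g : G) ∈ C := Subgroup.mem_centralizer_singleton_iff.2 (mul_inv_eq_iff_eq_mul.1 (by
        have := congrArg Subtype.val hfix
        rw [hBsmul, ← hg, hφ] at this
        exact this))
      have hgN : (⟨g, hgC⟩ : ↥C) ∈ K.N := (N_iff K).2 g.2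
      have hker' : ∀ k : ↥NG, φ k = 1 → ∀ hk : (k : G) ∈ C, (⟨k, hk⟩ : ↥C) ∈ K.A := by
        intro k hk1 hk
        refine K.centralizer_A fun y hy => Subtype.ext ?_
        have h2 : φ k ⟨y, (mem_bigA K).2 ⟨y, hy, rfl⟩⟩ = ⟨y, (mem_bigA K).2 ⟨y, hy, rfl⟩⟩ := by
          rw [hk1]; rfl
        have h3 := congrArg Subtype.val h2
        rw [hφ] at h3
        exact mul_inv_eq_iff_eq_mul.1 h3
      have hgA : (⟨g, hgC⟩ : ↥C) ∉ K.A := fun hA' => by
        have : b' = 1 := by
          refine Subtype.ext (MulEquiv.ext fun v => Subtype.ext ?_)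
          rw [← hg, hφ]
          show (g : G) * v * (g : G)⁻¹ = v
          rw [bigA_comm K ((mem_bigA K).2 ⟨_, hA', rfl⟩) v.2, mul_inv_cancel_right]
        rw [this, orderOf_one] at hb'
        norm_num at hb'
      have hg2 : (⟨g, hgC⟩ : ↥C) * ⟨g, hgC⟩ ∈ K.A := by
        refine hker' (g * g) ?_ (C.mul_mem hgC hgC)
        rw [map_mul, hg, ← Subgroup.coe_mul, ← pow_two, ← hb', pow_orderOf_eq_one, Subgroup.coe_one]
      refine (K.invol_fix hgN hgA hg2).trans ?_
      refine Nat.card_le_card_of_injective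
        (fun y => (⟨⟨(y.1 : G), (mem_bigA K).2 ⟨y.1, y.2.1, rfl⟩⟩, ?_⟩ : Numeric.fix ↥A b')) ?_
      · show b' • (⟨(y.1 : G), _⟩ : ↥A) = _
        refine Subtype.ext ?_
        rw [hBsmul, ← hg, hφ]
        have h2 : (g : G) * (y.1 : G) = (y.1 : G) * g :=
          (congrArg Subtype.val (Subgroup.mem_centralizer_singleton_iff.1 y.2.2)).symm
        show (g : G) * (y.1 : G) * (g : G)⁻¹ = (y.1 : G)
        rw [h2, mul_inv_cancel_right]
      · intro y z hyz
        exact Subtype.ext (Subtype.ext (congrArg (fun w => ((w : ↥A) : G)) (congrArg Subtype.val hyz)))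

end Cfsg.Agent.U62Plane
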