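import Cfsg.Agent.U62Plane.Group

/-!
A perfect double cover of `PSU₆(2)`: the preimage of the elementary abelian group of a plane is
elementary abelian of order `2¹⁰`, it is the only largest one of a Sylow 2-subgroup up to conjugacy,
and it has no invariant complement to the centre.
-/

set_option autoImplicit false
set_option maxRecDepth 100000
set_option maxHeartbeats 1000000

namespace Cfsg.Agent.U62Plane

open Cfsg.Agent.GFour25
open scoped Pointwise

/-- The transvection vector of a Hermitian matrix of rank one. -/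
def pvecOf (n : ℕ) : Fin 6 → F4 :=
  let m := hm n
  let c : F4 × F4 × F4 := if m.a00 ≠ 0 then (m.a00, m.a10, m.a20)
    else if m.a11 ≠ 0 then (m.a01, m.a11, m.a21) else (m.a02, m.a12, m.a22)
  ![c.1, c.1, c.2.1, c.2.1, c.2.2, c.2.2]

theorem pts_tv : ∀ n ∈ pts, B6.std (el n M3.one) = TTClass.UnitF4.tMat (pvecOf n) ∧
    TTClass.UnitF4.H (pvecOf n) (pvecOf n) = 0 ∧ pvecOf n ≠ 0 := by
  decide +kernel

theorem pts_lt : ∀ n ∈ pts, n < 512 := by decide +kernel

theorem eU_pts {n : Fin 512} (h : (n : ℕ) ∈ pts) :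
    eU n ∈ TTLink.UnitarySix.allTT card_F4 := by
  obtain ⟨h1, h2, h3⟩ := pts_tv n h
  refine ⟨pvecOf n, h2, h3, ?_⟩
  rw [TTLink.UnitarySix.tt_eq card_F4 h2]
  exact congrArg qh (Subtype.ext (Subtype.ext h1.symm))

theorem low_mul : ∀ a b : Fin 16, (utMul ⟨a, by omega⟩ ⟨b, by omega⟩ : ℕ) < 16 := by decide +kernel

theorem low_conj : ∀ (c : Fin 4) (a : Fin 16),
    (utMul (utMul (high c) ⟨a, by omega⟩) (high c) : ℕ) < 16 := by decide +kernel

theorem low_high : ∀ (a : Fin 16) (c : Fin 4),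
    utMul ⟨a, by omega⟩ (high c) = 0 → a = 0 ∧ c = 0 := by decide +kernel

/-- The matrices of rank one generate. -/
theorem EU_le_closure : EU ≤ Subgroup.closure {x | ∃ n : Fin 512, (n : ℕ) ∈ pts ∧ eU n = x} := by
  intro x hx
  obtain ⟨n, rfl⟩ := mem_EU.1 hx
  obtain ⟨k, hk⟩ := sel_surj n
  have key : ∀ l : List ℕ, (∀ i ∈ l, i ∈ pts) → ∃ h : l.foldr (· ^^^ ·) 0 < 512,
      eU ⟨l.foldr (· ^^^ ·) 0, h⟩ ∈ Subgroup.closure {x | ∃ n : Fin 512, (n : ℕ) ∈ pts ∧ eU n = x} := by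
    intro l hl
    induction l with
    | nil =>
      refine ⟨by norm_num, ?_⟩
      show eU 0 ∈ _
      rw [eU_zero]
      exact one_mem _
    | cons i l ih =>
      obtain ⟨hlt, hc⟩ := ih fun j hj => hl j (List.mem_cons_of_mem _ hj)
      have hi := hl i (List.mem_cons_self ..)
      refine ⟨Nat.xor_lt_two_pow (n := 9) (pts_lt i hi) hlt, ?_⟩
      have hmem : eU ⟨i, pts_lt i hi⟩ ∈ {x | ∃ n : Fin 512, (n : ℕ) ∈ pts ∧ eU n = x} :=
        ⟨⟨i, pts_lt i hi⟩, hi, rfl⟩
      have h := mul_mem (Subgroup.subset_closure hmem) hc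
      rwa [eU_mul] at h
  obtain ⟨hlt, hc⟩ := key
    (((List.range 9).filter fun i => (k : ℕ).testBit i).map fun i => basisPts.getD i 0) (by
      intro i hi
      obtain ⟨j, hj, rfl⟩ := List.mem_map.1 hi
      have hj9 : j < 9 := List.mem_range.1 (List.mem_filter.1 hj).1
      exact basisPts_sub _ (by
        rw [List.getD_eq_getElem _ _ (show j < basisPts.length from hj9)]; exact List.getElem_mem _))
  rwa [show n = ⟨_, hlt⟩ from Fin.ext hk.symm]

/-- A perfect extension of the unitary group by a central involution. -/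
structure Cov (C : Type*) [Group C] where
  /-- The projection. -/
  π : C →* PU
  surj : Function.Surjective π
  /-- The central involution. -/
  d : C
  hd : d * d = 1
  hd1 : d ≠ 1
  hdc : ∀ c, Commute d c
  hker : ∀ c, π c = 1 ↔ c = 1 ∨ c = d
  perf : commutator C = ⊤

namespace Cov

variable {C : Type*} [Group C] [Finite C] (K : Cov C)

theorem pi_d : K.π K.d = 1 := (K.hker _).2 (Or.inr rfl)

theorem eq_or {x y : C} (h : K.π x = K.π y) : x = y ∨ x = y * K.d := by
  rcases (K.hker (y⁻¹ * x)).1 (by rw [map_mul, map_inv, h, inv_mul_cancel]) with e | e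
  · exact Or.inl (inv_mul_eq_one.1 e).symm
  · exact Or.inr (by rw [← e, mul_inv_cancel_left])

theorem card_ker : Nat.card K.π.ker = 2 := by
  have e : (K.π.ker : Set C) = {1, K.d} := by
    ext c; exact (K.hker c)
  rw [← SetLike.coe_sort_coe, e, Nat.card_coe_set_eq, Set.ncard_pair (Ne.symm K.hd1)]

theorem card_comap (B : Subgroup PU) : Nat.card (B.comap K.π) = 2 * Nat.card B := by
  have h1 : (B.comap K.π).index = B.index := B.index_comap_of_surjective K.surj
  have h2 := (B.comap K.π).card_mul_index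
  have h3 := B.card_mul_index
  have h4 := Subgroup.card_eq_card_quotient_mul_card_subgroup K.π.ker
  rw [Nat.card_congr (QuotientGroup.quotientKerEquivOfSurjective K.π K.surj).toEquiv, K.card_ker] at h4
  rw [h1, h4, ← h3] at h2
  exact Nat.eq_of_mul_eq_mul_right (Nat.pos_of_ne_zero (Subgroup.index_ne_zero_of_finite (H := B)))
    (h2.trans (by ring))

include K in
theorem card_C : Nat.card C = 2 * Nat.card PU := by
  have h := K.card_comap ⊤
  rwa [Subgroup.comap_top, Subgroup.card_top, Subgroup.card_top] at h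

/-- The preimage of the group of the plane. -/
def A : Subgroup C := EU.comap K.π

/-- The preimage of the stabiliser of the plane. -/
def N : Subgroup C := NU.comap K.π

theorem card_A : Nat.card K.A = 1024 := by rw [A, K.card_comap, card_EU]

theorem card_N : Nat.card K.N = 20643840 := by rw [N, K.card_comap, card_NU]

theorem d_mem_A : K.d ∈ K.A := by show K.π K.d ∈ EU; rw [K.pi_d]; exact EU.one_mem

theorem mem_A {x : C} : x ∈ K.A ↔ ∃ n, eU n = K.π x := mem_EU

theorem elem_A : (∀ x ∈ K.A, ∀ y ∈ K.A, x * y = y * x) ∧ ∀ x ∈ K.A, x * x = 1 := by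
  obtain ⟨hsq, hcm⟩ := TTLink.UnitarySix.lift_transvections card_F4 K.π K.surj K.hd K.hd1 K.hdc K.hker
  set L : Set C := {c | (∃ n : Fin 512, (n : ℕ) ∈ pts ∧ K.π c = eU n) ∨ c = K.d} with hL
  have hLc : ∀ a ∈ L, ∀ b ∈ L, a * b = b * a := by
    intro a ha b hb
    rcases ha with ⟨n, hn, ha⟩ | rfl
    · rcases hb with ⟨m, hm', hb⟩ | rfl
      · refine hcm a b (ha ▸ eU_pts hn) (hb ▸ eU_pts hm') ?_
        rw [ha, hb]
        exact EU_comm (eU_mem n) (eU_mem m)
      · exact (K.hdc a).eq.symm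
    · exact (K.hdc b).eq
  have hAL : K.A ≤ Subgroup.closure L := by
    intro x hx
    obtain ⟨n, hn⟩ := K.mem_A.1 hx
    obtain ⟨k, hk⟩ := sel_surj n
    have key : ∀ l : List ℕ, (∀ i ∈ l, i ∈ pts) → ∃ h : l.foldr (· ^^^ ·) 0 < 512,
        ∃ c ∈ Subgroup.closure L, K.π c = eU ⟨l.foldr (· ^^^ ·) 0, h⟩ := by
      intro l hl
      induction l with
      | nil => exact ⟨by norm_num, 1, one_mem _, by rw [map_one]; exact eU_zero.symm⟩
      | cons i l ih =>
        obtain ⟨hlt, c, hc, hce⟩ := ih fun j hj => hl j (List.mem_cons_of_mem _ hj)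
        have hi := hl i (List.mem_cons_self ..)
        obtain ⟨a, ha⟩ := K.surj (eU ⟨i, pts_lt i hi⟩)
        refine ⟨Nat.xor_lt_two_pow (n := 9) (pts_lt i hi) hlt, a * c,
          mul_mem (Subgroup.subset_closure (Or.inl ⟨⟨i, pts_lt i hi⟩, hi, ha⟩)) hc, ?_⟩
        rw [map_mul, ha, hce, eU_mul]
        rfl
    obtain ⟨hlt, c, hc, hce⟩ := key
      (((List.range 9).filter fun i => (k : ℕ).testBit i).map fun i => basisPts.getD i 0) (by
        intro i hi
        obtain ⟨j, hj, rfl⟩ := List.mem_map.1 hi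
        have hj9 : j < 9 := List.mem_range.1 (List.mem_filter.1 hj).1
        exact basisPts_sub _ (by
          rw [List.getD_eq_getElem _ _ (show j < basisPts.length from hj9)]; exact List.getElem_mem _))
    have e : K.π x = K.π c := by
      rw [hce, ← hn]
      exact congrArg eU (Fin.ext hk.symm)
    rcases K.eq_or e with rfl | rfl
    · exact hc
    · exact mul_mem hc (Subgroup.subset_closure (Or.inr rfl))
  haveI := Subgroup.isMulCommutative_closure (k := L) hLc
  have hcomm : ∀ a ∈ Subgroup.closure L, ∀ b ∈ Subgroup.closure L, a * b = b * a := fun a ha b hb =>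
    congrArg Subtype.val (mul_comm' (⟨a, ha⟩ : ↥(Subgroup.closure L)) ⟨b, hb⟩)
  refine ⟨fun x hx y hy => hcomm x (hAL hx) y (hAL hy), fun x hx => ?_⟩
  have hx' := hAL hx
  clear hx
  induction hx' using Subgroup.closure_induction with
  | mem c hc =>
    rcases hc with ⟨n, hn, hc⟩ | rfl
    · exact hsq c (hc ▸ eU_pts hn)
    · exact K.hd
  | one => exact mul_one 1
  | mul a b ha hb h1 h2 =>
    rw [show a * b * (a * b) = a * (b * a) * b by simp only [mul_assoc], hcomm b hb a ha,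
      show a * (a * b) * b = (a * a) * (b * b) by simp only [mul_assoc], h1, h2, mul_one]
  | inv a _ h => rw [← mul_inv_rev, h, inv_one]

theorem mem_N_iff {x : C} : x ∈ K.N ↔ ∀ a ∈ K.A, x * a * x⁻¹ ∈ K.A := by
  constructor
  · intro hx a ha
    show K.π (x * a * x⁻¹) ∈ EU
    rw [map_mul, map_mul, map_inv]
    exact (Subgroup.mem_normalizer_iff.1 hx (K.π a)).1 ha
  · intro h
    refine mem_NU_of_conj fun y hy => ?_
    obtain ⟨a, rfl⟩ := K.surj y
    have := h a hy
    simpa only [A, Subgroup.mem_comap, map_mul, map_inv] using this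

theorem centralizer_A {x : C} (h : ∀ a ∈ K.A, x * a = a * x) : x ∈ K.A := by
  refine centralizer_EU fun y hy => ?_
  obtain ⟨a, rfl⟩ := K.surj y
  rw [← map_mul, h a hy, map_mul]

theorem A_le_N : K.A ≤ K.N := Subgroup.comap_mono EU_le_NU

/-- The preimage of the Sylow 2-subgroup. -/
def P : Subgroup C := PP.comap K.π

theorem card_P : Nat.card K.P = 2 ^ 16 := by rw [P, K.card_comap, card_PP]; norm_num

theorem exists_conj_P {X : Subgroup C} (hX : IsPGroup 2 ↥X) :
    ∃ g, ∀ x ∈ X, g * x * g⁻¹ ∈ K.P := by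
  obtain ⟨g₀, hg⟩ := exists_conj_PP (hX.map K.π)
  obtain ⟨g, rfl⟩ := K.surj g₀
  refine ⟨g, fun x hx => ?_⟩
  show K.π (g * x * g⁻¹) ∈ PP
  rw [map_mul, map_mul, map_inv]
  exact hg _ ⟨x, hx, rfl⟩

/-- Elementary abelian subgroups of order at least `2¹⁰` of the Sylow subgroup. -/
theorem le_A {X : Subgroup C} (hX : X ≤ K.P) (hc : ∀ x ∈ X, ∀ y ∈ X, x * y = y * x)
    (hsq : ∀ x ∈ X, x * x = 1) (hcard : 1024 ≤ Nat.card X) : X ≤ K.A := by
  have hmap : Nat.card X ≤ 2 * Nat.card (X.map K.π) := by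
    rw [← K.card_comap]
    exact Subgroup.card_le_of_le (Subgroup.le_comap_map _ _)
  have h := le_EU (B := X.map K.π) (by rintro _ ⟨x, hx, rfl⟩; exact hX hx)
    (by rintro _ ⟨x, hx, rfl⟩ _ ⟨y, hy, rfl⟩; rw [← map_mul, hc x hx y hy, map_mul])
    (by rintro _ ⟨x, hx, rfl⟩; rw [← map_mul, hsq x hx, map_one]) (by omega)
  exact Subgroup.map_le_iff_le_comap.1 h

theorem conj_eq_A {X : Subgroup C} (hc : ∀ x ∈ X, ∀ y ∈ X, x * y = y * x)
    (hsq : ∀ x ∈ X, x * x = 1) (hcard : 1024 ≤ Nat.card X) :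
    ∃ g, X.map (MulAut.conj g).toMonoidHom = K.A := by
  have hp : IsPGroup 2 ↥X := fun x => ⟨1, Subtype.ext (by rw [pow_one, Subgroup.coe_pow, pow_two]; exact hsq _ x.2)⟩
  obtain ⟨g, hg⟩ := K.exists_conj_P hp
  have hc' : Nat.card (X.map (MulAut.conj g).toMonoidHom) = Nat.card X :=
    Subgroup.card_map_of_injective (MulAut.conj g).injective
  refine ⟨g, Subgroup.eq_of_le_of_card_ge (K.le_A ?_ ?_ ?_ (by omega)) (by rw [K.card_A]; omega)⟩
  · rintro _ ⟨x, hx, rfl⟩; exact hg x hx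
  · rintro _ ⟨x, hx, rfl⟩ _ ⟨y, hy, rfl⟩; rw [← map_mul, hc x hx y hy, map_mul]
  · rintro _ ⟨x, hx, rfl⟩; rw [← map_mul, hsq x hx, map_one]

theorem exists_conj_A {y : C} (hy : y * y = 1) : ∃ g, g * y * g⁻¹ ∈ K.A := by
  obtain ⟨g₀, hg⟩ := exists_conj_EU (y := K.π y) (by rw [← map_mul, hy, map_one])
  obtain ⟨g, rfl⟩ := K.surj g₀
  exact ⟨g, by show K.π (g * y * g⁻¹) ∈ EU; rw [map_mul, map_mul, map_inv]; exact hg⟩

/-- The part of a set over an element of the group of the plane. -/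
def fib (O : Set C) (n : Fin 512) : Set C := {x | x ∈ O ∧ K.π x = eU n}

theorem ncard_fib_le (O : Set C) (n : Fin 512) : (K.fib O n).ncard ≤ 2 := by
  obtain ⟨a, ha⟩ := K.surj (eU n)
  refine (Set.ncard_le_ncard (t := {a, a * K.d}) (fun x hx => ?_) (Set.toFinite _)).trans ?_
  · exact K.eq_or (hx.2.trans ha.symm)
  · exact (Set.ncard_insert_le _ _).trans (by simp)

theorem exists_N_lift (a : S3) : ∃ g ∈ K.N, K.π g = lU a := by
  obtain ⟨g, hg⟩ := K.surj (lU a)
  exact ⟨g, by show K.π g ∈ NU; rw [hg]; exact lU_mem_NU a, hg⟩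

theorem fib_fact {O : Set C} (hO : ∀ g ∈ K.N, ∀ x ∈ O, g * x * g⁻¹ ∈ O) (a : S3) (n : Fin 512) :
    (K.fib O (fact a n)).ncard = (K.fib O n).ncard := by
  obtain ⟨g, hgN, hg⟩ := K.exists_N_lift a
  refine (Set.ncard_congr (fun x _ => g * x * g⁻¹) ?_ ?_ ?_).symm
  · intro x hx
    refine ⟨hO g hgN x hx.1, ?_⟩
    rw [map_mul, map_mul, map_inv, hg, hx.2, lU_conj]
  · intro x y _ _ h; exact (MulAut.conj g).injective h
  · intro y hy
    refine ⟨g⁻¹ * y * g⁻¹⁻¹, ⟨hO g⁻¹ (K.N.inv_mem hgN) y hy.1, ?_⟩, by group⟩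
    rw [inv_inv, map_mul, map_mul, map_inv, hg, hy.2, ← lU_conj]; group

/-- An entry of the table of orbits. -/
def orbN (i : ℕ) : Fin 512 := ⟨orbT.getD i 0 % 512, Nat.mod_lt _ (by norm_num)⟩

theorem genImg_getD {j : ℕ} (hj : j < 4) : genImg.getD j [] = imgs (gens.getD j M3.one) := by
  rw [← genImg_eq]
  interval_cases j <;> rfl

theorem gens_getD_det {j : ℕ} (hj : j < 4) : (gens.getD j M3.one).det = 1 := by
  interval_cases j <;> decide +kernel

theorem orbN_step {i : ℕ} (h : i < 511) (h' : i ∉ [0, 21, 231]) :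
    ∃ a, fact a (orbN ((orbT.getD i 0 / 512) % 1024)) = orbN i := by
  obtain ⟨-, h2, h3, -⟩ := orbT_ok i h h'
  refine ⟨⟨_, gens_getD_det h3⟩, Fin.ext ?_⟩
  show hact _ _ = _
  rw [genImg_getD h3, ← hact_eq _ (Nat.mod_lt _ (by norm_num))] at h2
  exact h2

theorem fib_orb {O : Set C} (hO : ∀ g ∈ K.N, ∀ x ∈ O, g * x * g⁻¹ ∈ O) {i : ℕ} (hi : i < 511) :
    (K.fib O (orbN i)).ncard = if i < 21 then (K.fib O (orbN 0)).ncard
      else if i < 231 then (K.fib O (orbN 21)).ncard else (K.fib O (orbN 231)).ncard := by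
  induction i using Nat.strong_induction_on with
  | _ i ih =>
  by_cases h' : i ∈ [0, 21, 231]
  · simp only [List.mem_cons, List.not_mem_nil, or_false] at h'
    rcases h' with rfl | rfl | rfl <;> rfl
  obtain ⟨h1, -, -, hA, hB, hD⟩ := orbT_ok i hi h'
  obtain ⟨a, ha⟩ := orbN_step hi h'
  rw [← ha, K.fib_fact hO, ih _ h1 (h1.trans hi)]
  by_cases c1 : i < 21
  · rw [if_pos c1, if_pos (hA c1)]
  by_cases c2 : i < 231
  · rw [if_neg c1, if_pos c2, if_neg (by have := hB (not_lt.1 c1) c2; omega), if_pos (h1.trans c2)]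
  · rw [if_neg c1, if_neg c2, if_neg (by have := hD (not_lt.1 c2); omega),
      if_neg (by have := hD (not_lt.1 c2); omega)]

theorem orbN_inj : Set.InjOn orbN (Finset.range 511 : Finset ℕ) := by
  intro i hi j hj h
  rw [Finset.coe_range, Set.mem_Iio] at hi hj
  have := congrArg Fin.val h
  rw [← (posT_ok i hi).2, ← (posT_ok j hj).2]
  exact congrArg (fun v => posT.getD v 0) this

theorem univ_eq : (Finset.univ : Finset (Fin 512)) = insert 0 ((Finset.range 511).image orbN) := by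
  refine (Finset.eq_univ_of_card _ ?_).symm
  rw [Finset.card_insert_of_notMem, Finset.card_image_of_injOn orbN_inj, Finset.card_range,
    Fintype.card_fin]
  intro h
  obtain ⟨i, hi, e⟩ := Finset.mem_image.1 h
  exact (posT_ok i (Finset.mem_range.1 hi)).1 (congrArg Fin.val e)

/-- The size of an invariant subset. -/
theorem count {O : Set C} (hOA : O ⊆ K.A) (hO : ∀ g ∈ K.N, ∀ x ∈ O, g * x * g⁻¹ ∈ O) :
    O.ncard = (K.fib O 0).ncard + 21 * (K.fib O (orbN 0)).ncard + 210 * (K.fib O (orbN 21)).ncard +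
      280 * (K.fib O (orbN 231)).ncard := by
  classical
  have hsum : O.ncard = ∑ n : Fin 512, (K.fib O n).ncard := by
    haveI := Fintype.ofFinite C
    have hv : ∀ x ∈ O.toFinset, ∃ n, eU n = K.π x := fun x hx => K.mem_A.1 (hOA (Set.mem_toFinset.1 hx))
    rw [Set.ncard_eq_toFinset_card', Finset.card_eq_sum_card_fiberwise (s := O.toFinset)
      (t := Finset.univ) (f := fun x => if h : ∃ n, eU n = K.π x then Classical.choose h else 0)
      fun _ _ => Finset.mem_univ _]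
    refine Finset.sum_congr rfl fun n _ => ?_
    rw [← Set.ncard_coe_finset]
    congr 1
    ext x
    simp only [Finset.coe_filter, Set.mem_toFinset]
    constructor
    · rintro ⟨hx, h⟩
      have hx' := hv x (Set.mem_toFinset.2 hx)
      rw [dif_pos hx'] at h
      exact ⟨hx, by rw [← Classical.choose_spec hx', h]⟩
    · rintro ⟨hx, h⟩
      have hx' := hv x (Set.mem_toFinset.2 hx)
      exact ⟨hx, by rw [dif_pos hx']; exact eU_inj ((Classical.choose_spec hx').trans h)⟩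
  rw [hsum, univ_eq, Finset.sum_insert, Finset.sum_image orbN_inj]
  · have e : Finset.range 511 = Finset.range (21 + (210 + 280)) := rfl
    rw [Finset.sum_congr rfl fun i hi => K.fib_orb hO (Finset.mem_range.1 hi), e,
      Finset.sum_range_add, Finset.sum_range_add]
    rw [Finset.sum_congr rfl fun i hi => if_pos (Finset.mem_range.1 hi)]
    rw [Finset.sum_congr rfl fun i hi => (if_neg (show ¬ 21 + i < 21 by omega)).trans
      (if_pos (show 21 + i < 231 by have := Finset.mem_range.1 hi; omega))]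
    rw [Finset.sum_congr rfl fun i (_ : i ∈ Finset.range 280) =>
      (if_neg (show ¬ 21 + (210 + i) < 21 by omega)).trans
      (if_neg (show ¬ 21 + (210 + i) < 231 by omega))]
    simp only [Finset.sum_const, Finset.card_range, smul_eq_mul]
    ring
  · intro h
    obtain ⟨i, hi, e⟩ := Finset.mem_image.1 h
    exact (posT_ok i (Finset.mem_range.1 hi)).1 (congrArg Fin.val e)

/-- Conjugate of the preimage of the group of the plane by an element over an involution. -/
theorem exists_lift (y : PU) : ∃ c, K.π c = y := K.surj y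

/-- No invariant complement to the centre. -/
theorem nonsplit {H : Subgroup C} (hH : H ≤ K.A) (hcard : Nat.card H = 512) (hd : K.d ∉ H)
    (hinv : ∀ g ∈ K.N, ∀ h ∈ H, g * h * g⁻¹ ∈ H) : False := by
  classical
  have hinj : Set.InjOn K.π (H : Set C) := by
    intro x hx y hy h
    rcases K.eq_or h with e | e
    · exact e
    · exact absurd (by
        have : y⁻¹ * x ∈ H := H.mul_mem (H.inv_mem hy) hx
        rwa [e, inv_mul_cancel_left] at this) hd
  have himg : H.map K.π = EU := by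
    refine Subgroup.eq_of_le_of_card_ge ?_ (le_of_eq ?_)
    · rintro _ ⟨x, hx, rfl⟩; exact hH hx
    · rw [card_EU]; exact ((Nat.card_image_of_injOn hinj).trans hcard).symm
  -- lifts along conjugates of the plane
  have lift : ∀ (t : C) (y : PU), K.π t⁻¹ * y * (K.π t⁻¹)⁻¹ ∈ EU →
      ∃ z ∈ H.map (MulAut.conj t).toMonoidHom, K.π z = y := by
    intro t y hy
    rw [← himg] at hy
    obtain ⟨h, hh, he⟩ := hy
    refine ⟨t * h * t⁻¹, ⟨h, hh, rfl⟩, ?_⟩
    rw [map_mul, map_mul, he, map_inv]; group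
  have hnorm : ∀ (t g : C), t⁻¹ * g * t ∈ K.N → ∀ z ∈ H.map (MulAut.conj t).toMonoidHom,
      g * z * g⁻¹ ∈ H.map (MulAut.conj t).toMonoidHom := by
    rintro t g hg _ ⟨h, hh, rfl⟩
    exact ⟨_, hinv _ hg h hh, by simp only [MulEquiv.coe_toMonoidHom, MulAut.conj_apply]; group⟩
  obtain ⟨s, hs⟩ := K.surj t23
  obtain ⟨r, hr⟩ := K.surj t3
  set Hs := H.map (MulAut.conj s).toMonoidHom
  set Hr := H.map (MulAut.conj r).toMonoidHom
  have hz1 : ∀ a : Fin 16, ∃ z ∈ Hs, K.π z = lU (utS ⟨a, by omega⟩) := by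
    intro a
    obtain ⟨k, hk⟩ := t23_conj_low a
    refine lift s _ ?_
    rw [map_inv, hs, inv_eq_of_mul_eq_one_right t23_sq, inv_eq_of_mul_eq_one_right t23_sq, hk]
    exact eU_mem k
  have hz2 : ∀ c : Fin 4, ∃ z ∈ Hr, K.π z = lU (utS (high c)) := by
    intro c
    obtain ⟨k, hk⟩ := t3_conj_high c
    refine lift r _ ?_
    rw [map_inv, hr, inv_eq_of_mul_eq_one_right t3_sq, inv_eq_of_mul_eq_one_right t3_sq, hk]
    exact eU_mem k
  choose z1 hz1m hz1π using hz1
  choose z2 hz2m hz2π using hz2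
  let low : Set PU := Set.range fun a : Fin 16 => lU (utS ⟨a, by omega⟩)
  let lowS : Subgroup C :=
    { carrier := {z | z ∈ Hs ∧ K.π z ∈ Subgroup.closure low}
      one_mem' := ⟨Hs.one_mem, by rw [map_one]; exact one_mem _⟩
      mul_mem' := fun a b => ⟨Hs.mul_mem a.1 b.1, by rw [map_mul]; exact mul_mem a.2 b.2⟩
      inv_mem' := fun a => ⟨Hs.inv_mem a.1, by rw [map_inv]; exact inv_mem a.2⟩ }
  have hlowPP : Subgroup.closure low ≤ PP := by
    rw [Subgroup.closure_le]
    rintro _ ⟨a, rfl⟩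
    exact mem_PP.2 ⟨0, _, by rw [eU_zero, one_mul]⟩
  have hlowset : ∀ y ∈ Subgroup.closure low, ∃ a : Fin 16, y = lU (utS ⟨a, by omega⟩) := by
    intro y hy
    have hmul := low_mul
    have hcl : ∀ x ∈ low, ∀ y ∈ low, x * y ∈ low := by
      rintro _ ⟨a, rfl⟩ _ ⟨b, rfl⟩
      exact ⟨⟨_, hmul a b⟩, by simp only [lU_mul, utS_mul]⟩
    have h1 : (1 : PU) ∈ low := ⟨0, show lU (utS 0) = 1 by rw [utS_zero, lU_one]⟩
    have : Subgroup.closure low ≤ ofMul low h1 hcl := (Subgroup.closure_le _).2 fun x hx => hx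
    obtain ⟨a, ha⟩ := this hy
    exact ⟨a, ha.symm⟩
  have hQnorm : ∀ c, ∀ z ∈ lowS, z2 c * z * (z2 c)⁻¹ ∈ lowS := by
    intro c z hz
    refine ⟨hnorm s _ ?_ z hz.1, ?_⟩
    · show K.π (s⁻¹ * z2 c * s) ∈ NU
      rw [map_mul, map_mul, map_inv, hs, hz2π, inv_eq_of_mul_eq_one_right t23_sq]
      exact t23_conj_high c
    · obtain ⟨a, ha⟩ := hlowset _ hz.2
      rw [map_mul, map_mul, map_inv, hz2π, ha]
      have key := low_conj
      have hinv' : ∀ c : Fin 4, utMul (high c) (high c) = 0 := by decide +kernel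
      rw [show (lU (utS (high c)))⁻¹ = lU (utS (high c)) from
        inv_eq_of_mul_eq_one_right (by rw [lU_mul, utS_mul, hinv', utS_zero, lU_one]),
        lU_mul, utS_mul, lU_mul, utS_mul]
      exact Subgroup.subset_closure ⟨⟨_, key c a⟩, rfl⟩
  set Q := Subgroup.closure (Set.range z2)
  set W := lowS ⊔ Q
  -- the group of the complement and the two pieces
  have hWN : W ≤ K.N := by
    refine sup_le (fun z hz => PP_le_NU (hlowPP hz.2)) ?_
    rw [Subgroup.closure_le]
    rintro _ ⟨c, rfl⟩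
    show K.π (z2 c) ∈ NU
    rw [hz2π]; exact lU_mem_NU _
  have hQH : Q ≤ Hr := by
    rw [Subgroup.closure_le]; rintro _ ⟨c, rfl⟩; exact hz2m c
  have hQimg : ∀ z ∈ Q, ∃ c, K.π z = lU (utS (high c)) := by
    intro z hz
    induction hz using Subgroup.closure_induction with
    | mem z hz => obtain ⟨c, rfl⟩ := hz; exact ⟨c, hz2π c⟩
    | one => exact ⟨0, by rw [map_one, show high 0 = 0 from rfl, utS_zero, lU_one]⟩
    | mul a b _ _ ha hb =>
      obtain ⟨c, hc⟩ := ha; obtain ⟨e, he⟩ := hb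
      have key : ∀ c e : Fin 4, ∃ f, utMul (high c) (high e) = high f := by decide +kernel
      obtain ⟨f, hf⟩ := key c e
      exact ⟨f, by rw [map_mul, hc, he, lU_mul, utS_mul, hf]⟩
    | inv a _ ha =>
      obtain ⟨c, hc⟩ := ha
      refine ⟨c, ?_⟩
      have hinv' : ∀ c : Fin 4, utMul (high c) (high c) = 0 := by decide +kernel
      rw [map_inv, hc]
      exact inv_eq_of_mul_eq_one_right (by rw [lU_mul, utS_mul, hinv', utS_zero, lU_one])
  have hHrinj : ∀ x ∈ Hr, K.π x = 1 → x = 1 := by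
    rintro _ ⟨h, hh, rfl⟩ he
    simp only [MulEquiv.coe_toMonoidHom, MulAut.conj_apply, map_mul, map_inv] at he ⊢
    rw [mul_inv_eq_one, mul_eq_left] at he
    rw [hinj hh H.one_mem (by rw [he, map_one]), mul_one, mul_inv_cancel]
  have hHsinj : ∀ x ∈ Hs, K.π x = 1 → x = 1 := by
    rintro _ ⟨h, hh, rfl⟩ he
    simp only [MulEquiv.coe_toMonoidHom, MulAut.conj_apply, map_mul, map_inv] at he ⊢
    rw [mul_inv_eq_one, mul_eq_left] at he
    rw [hinj hh H.one_mem (by rw [he, map_one]), mul_one, mul_inv_cancel]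
  have hlowQ : Q ≤ Subgroup.normalizer (lowS : Set C) := by
    rw [Subgroup.closure_le]
    rintro _ ⟨c, rfl⟩
    have hsq : z2 c * z2 c = 1 := by
      refine hHrinj _ (Hr.mul_mem (hz2m c) (hz2m c)) ?_
      have hinv' : ∀ c : Fin 4, utMul (high c) (high c) = 0 := by decide +kernel
      rw [map_mul, hz2π, lU_mul, utS_mul, hinv', utS_zero, lU_one]
    rw [SetLike.mem_coe, Subgroup.mem_normalizer_iff]
    intro z
    refine ⟨hQnorm c z, fun h => ?_⟩
    have h' := hQnorm c _ h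
    rwa [show z2 c * (z2 c * z * (z2 c)⁻¹) * (z2 c)⁻¹ = (z2 c * z2 c) * z * (z2 c * z2 c)⁻¹ by group,
      hsq, one_mul, inv_one, mul_one] at h'
  have hHW : H ⊔ W = H ⊔ W := rfl
  have hWHn : W ≤ Subgroup.normalizer (H : Set C) := by
    intro g hg
    rw [Subgroup.mem_normalizer_iff]
    intro h
    refine ⟨hinv g (hWN hg) h, fun hh => ?_⟩
    have := hinv g⁻¹ (K.N.inv_mem (hWN hg)) _ hh
    rwa [show g⁻¹ * (g * h * g⁻¹) * g⁻¹⁻¹ = h by group] at this
  set Kc := H ⊔ W
  have hKP : Kc ≤ K.P := by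
    refine sup_le (fun x hx => EU_le_PP (hH hx)) (sup_le (fun z hz => hlowPP hz.2) ?_)
    rw [Subgroup.closure_le]
    rintro _ ⟨c, rfl⟩
    show K.π (z2 c) ∈ PP
    rw [hz2π]
    exact mem_PP.2 ⟨0, _, by rw [eU_zero, one_mul]⟩
  have hKinj : ∀ x ∈ Kc, K.π x = 1 → x = 1 := by
    intro x hx he
    have hx' : x ∈ ((H : Set C) * (W : Set C)) := by
      rw [← Subgroup.coe_mul_of_right_le_normalizer_left H W hWHn]; exact hx
    obtain ⟨h, hh, v, hv, rfl⟩ := hx'
    have hv' : v ∈ ((lowS : Set C) * (Q : Set C)) := by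
      rw [← Subgroup.coe_mul_of_right_le_normalizer_left lowS Q hlowQ]; exact hv
    obtain ⟨a, ha, q, hq, rfl⟩ := hv'
    obtain ⟨ai, hai⟩ := hlowset _ ha.2
    obtain ⟨c, hc⟩ := hQimg q hq
    obtain ⟨n, hn⟩ := K.mem_A.1 (hH hh)
    simp only [map_mul, ← hn, hai, hc, lU_mul, utS_mul] at he
    rw [← el_split, show (1 : PU) = qh (sel6 0 (utS 0)) by rw [utS_zero, sel6_one, map_one]] at he
    have h' := sel6_inj (qh_inj_PT ⟨(n, utMul _ _), rfl⟩ ⟨(0, 0), rfl⟩ he)
    have key := low_high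
    obtain ⟨rfl, rfl⟩ := key ai c (utS_inj h'.2)
    have e1 : a = 1 := hHsinj a ha.1 (by
      rw [hai]; show lU (utS 0) = 1; rw [utS_zero, lU_one])
    have e2 : q = 1 := hHrinj q (hQH hq) (by
      rw [hc, show high 0 = 0 from rfl, utS_zero, lU_one])
    have e3 : h = 1 := hinj hh H.one_mem (by rw [← hn, map_one, show n = 0 from h'.1, eU_zero])
    show h * (a * q) = 1
    rw [e1, e2, e3, one_mul, one_mul]
  have hKimg : Kc.map K.π = PP := by
    refine le_antisymm (by rintro _ ⟨x, hx, rfl⟩; exact hKP hx) fun y hy => ?_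
    obtain ⟨n, u, rfl⟩ := mem_PP.1 hy
    refine (Kc.map K.π).mul_mem ?_ ?_
    · have : eU n ∈ H.map K.π := himg ▸ eU_mem n
      exact Subgroup.map_mono le_sup_left this
    · obtain ⟨a, c, hac⟩ := utS_split u
      rw [hac]
      refine (Kc.map K.π).mul_mem ⟨z1 a, ?_, hz1π a⟩ ⟨z2 c, ?_, hz2π c⟩
      · exact Subgroup.mem_sup_right (Subgroup.mem_sup_left
          ⟨hz1m a, by rw [hz1π]; exact Subgroup.subset_closure ⟨a, rfl⟩⟩)
      · exact Subgroup.mem_sup_right (Subgroup.mem_sup_right (Subgroup.subset_closure ⟨c, rfl⟩))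
  have hKinj' : Set.InjOn K.π (Kc : Set C) := fun x hx y hy h =>
    inv_mul_eq_one.1 (hKinj _ (Kc.mul_mem (Kc.inv_mem hx) hy) (by rw [map_mul, map_inv, h, inv_mul_cancel]))
  have hcardK : Nat.card Kc = 2 ^ 15 := by
    rw [← card_PP, ← hKimg]
    exact (Nat.card_image_of_injOn hKinj').symm
  -- transfer to the quotient of order two
  have hdP : K.d ∈ K.P := by show K.π K.d ∈ PP; rw [K.pi_d]; exact PP.one_mem
  have hidx : (Kc.subgroupOf K.P).index = 2 := by
    have h := (Kc.subgroupOf K.P).card_mul_index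
    rw [Nat.card_congr (Subgroup.subgroupOfEquivOfLe hKP).toEquiv, hcardK, K.card_P] at h
    omega
  haveI := Subgroup.normal_of_index_eq_two hidx
  let q := QuotientGroup.mk' (Kc.subgroupOf K.P)
  haveI : IsCyclic (↥K.P ⧸ Kc.subgroupOf K.P) :=
    isCyclic_of_prime_card (p := 2) (hp := ⟨Nat.prime_two⟩) (by rw [← Subgroup.index_eq_card, hidx])
  letI : CommGroup (↥K.P ⧸ Kc.subgroupOf K.P) := IsCyclic.commGroup
  haveI : K.P.FiniteIndex := inferInstance
  set T := MonoidHom.transfer q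
  have hT : ∀ g, T g = 1 := fun g => by
    have hle : commutator C ≤ T.ker := Abelianization.commutator_subset_ker T
    rw [K.perf] at hle
    exact MonoidHom.mem_ker.1 (hle (Subgroup.mem_top g))
  have key : ∀ (k : ℕ) (g₀ : C), g₀⁻¹ * K.d ^ k * g₀ ∈ K.P → g₀⁻¹ * K.d ^ k * g₀ = K.d ^ k :=
    fun k g₀ _ => by rw [mul_assoc, ((K.hdc g₀).pow_left k).eq, inv_mul_cancel_left]
  have h1 := MonoidHom.transfer_eq_pow (ϕ := q) K.d key
  rw [show MonoidHom.transfer q K.d = 1 from hT K.d] at h1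
  have hodd : Odd K.P.index := by
    have h := K.P.card_mul_index
    rw [K.card_P, K.card_C, card_PU] at h
    exact ⟨140332, by omega⟩
  obtain ⟨j, hj⟩ := hodd
  have hpow : K.d ^ K.P.index = K.d := by
    rw [hj, pow_succ, pow_mul, pow_two, K.hd, one_pow, one_mul]
  have h2 : q ⟨K.d, hdP⟩ = 1 := by
    rw [h1]; congr 1; exact Subtype.ext hpow.symm
  have h3 : K.d ∈ Kc := Subgroup.mem_subgroupOf.1 ((QuotientGroup.eq_one_iff (⟨K.d, hdP⟩ : ↥K.P)).1 h2)
  exact K.hd1 (hKinj _ h3 K.pi_d)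

theorem fib_le_one_of_disjoint {O O' : Set C} (h : Disjoint O O') (n : Fin 512) :
    (K.fib O n).ncard + (K.fib O' n).ncard ≤ 2 := by
  have hd' : Disjoint (K.fib O n) (K.fib O' n) :=
    h.mono (fun _ hx => hx.1) fun _ hx => hx.1
  rw [← Set.ncard_union_eq hd' (Set.toFinite _) (Set.toFinite _)]
  refine (Set.ncard_le_ncard (t := K.fib Set.univ n) ?_ (Set.toFinite _)).trans (K.ncard_fib_le _ n)
  rintro x (hx | hx) <;> exact ⟨trivial, hx.2⟩

/-- An element of order five of the stabiliser and its fixed points in the group. -/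
theorem five_fix : ∃ f ∈ K.N, f ∉ K.A ∧ f ^ 5 ∈ K.A ∧
    (∀ x, K.π x = eU (orbN 0) → K.π (f * x * f⁻¹) = eU (orbN 0)) ∧
    ∀ x ∈ K.A, f * x * f⁻¹ = x → K.π x = 1 ∨ K.π x = eU (orbN 0) := by
  obtain ⟨f, hfN, hf⟩ := K.exists_N_lift ⟨five, five_facts.1⟩
  set F : S3 := ⟨five, five_facts.1⟩
  have hfix : ∀ n : Fin 512, fact F n = n → (n : ℕ) = 0 ∨ (n : ℕ) = 1 := by
    intro n hn
    have h1 : (n : ℕ) ∈ (List.range 512).filter (fun m => lact fiveImg m == m) := by
      rw [List.mem_filter]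
      refine ⟨List.mem_range.2 n.2, beq_iff_eq.2 ?_⟩
      rw [← five_facts.2.2.1, ← hact_eq _ n.2]
      exact congrArg Fin.val hn
    rw [five_facts.2.2.2] at h1
    simpa using h1
  have h0 : ∀ x ∈ K.A, f * x * f⁻¹ = x → K.π x = 1 ∨ K.π x = eU (orbN 0) := by
    intro x hx he
    obtain ⟨n, hn⟩ := K.mem_A.1 hx
    have h2 := congrArg K.π he
    rw [map_mul, map_mul, map_inv, hf, ← hn, lU_conj] at h2
    rcases hfix n (eU_inj h2) with h | h
    · left; rw [← hn, show n = 0 from Fin.ext h, eU_zero]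
    · right; rw [← hn]; exact congrArg eU (Fin.ext (h.trans orbT_reps.1.symm))
  refine ⟨f, hfN, fun hfA => ?_, ?_, fun x hx => ?_, h0⟩
  · obtain ⟨a, ha⟩ := K.surj (eU (orbN 21))
    have haA : a ∈ K.A := by show K.π a ∈ EU; rw [ha]; exact eU_mem _
    rcases h0 a haA (by rw [K.elem_A.1 f hfA a haA, mul_inv_cancel_right]) with h | h
    · exact (by
        have := congrArg Fin.val (eU_inj (ha.symm.trans (h.trans eU_zero.symm)))
        exact absurd (orbT_reps.2.1.symm.trans this) (by norm_num))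
    · exact absurd (orbT_reps.2.1.symm.trans ((congrArg Fin.val (eU_inj (ha.symm.trans h))).trans
        orbT_reps.1)) (by norm_num)
  · show K.π (f ^ 5) ∈ EU
    rw [map_pow, hf, show lU F ^ 5 = lU F * (lU F * (lU F * (lU F * lU F))) by
      simp only [pow_succ, pow_zero, one_mul, mul_assoc], lU_mul, lU_mul,
      lU_mul, lU_mul, show s3mul F (s3mul F (s3mul F (s3mul F F))) = s3one from
        Subtype.ext five_facts.2.1, lU_one]
    exact EU.one_mem
  · rw [map_mul, map_mul, map_inv, hf, hx, lU_conj]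
    refine congrArg eU (Fin.ext ?_)
    show hact five (orbN 0 : ℕ) = (orbN 0 : ℕ)
    rw [show (orbN 0 : ℕ) = 1 from orbT_reps.1]
    decide +kernel

/-- An involution of the stabiliser modulo the group fixes at least `2⁶` elements of it. -/
theorem invol_fix {x : C} (hx : x ∈ K.N) (hxA : x ∉ K.A) (hx2 : x * x ∈ K.A) :
    64 ≤ Nat.card ↥(K.A ⊓ Subgroup.centralizer ({x} : Set C)) := by
  classical
  haveI : Fact (Nat.Prime 2) := ⟨Nat.prime_two⟩
  -- a conjugate lies over the standard involution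
  obtain ⟨g, hg, hgx⟩ : ∃ g ∈ K.N, ∃ n, K.π (g * x * g⁻¹) = eU n * lU u0S := by
    set L := (Subgroup.zpowers (K.π x) ⊔ EU).subgroupOf NU
    have hxE : K.π x * K.π x ∈ EU := by rw [← map_mul]; exact hx2
    have hLp : IsPGroup 2 ↥L := by
      have hcard : ∀ y ∈ Subgroup.zpowers (K.π x) ⊔ EU, y ^ (4 : ℕ) = 1 := by
        intro y hy
        have hnorm : Subgroup.zpowers (K.π x) ≤ Subgroup.normalizer (EU : Set PU) := by
          rw [Subgroup.zpowers_le]; exact hx
        have hy' : y ∈ (Subgroup.zpowers (K.π x) : Set PU) * (EU : Set PU) := by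
          rw [← Subgroup.coe_mul_of_left_le_normalizer_right _ _ hnorm]; exact hy
        obtain ⟨_, ⟨k, rfl⟩, e, he, rfl⟩ := hy'
        have hsq2 : K.π x ^ k * e * (K.π x ^ k * e) ∈ EU := by
          rw [show K.π x ^ k * e * (K.π x ^ k * e) =
            (K.π x ^ k * e * (K.π x ^ k)⁻¹) * ((K.π x * K.π x) ^ k) * e by
              rw [← pow_two (K.π x), ← zpow_natCast (K.π x), ← zpow_mul, show ((2 : ℕ) : ℤ) * k = k + k by
                push_cast; ring, zpow_add]; group]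
          refine EU.mul_mem (EU.mul_mem ?_ (EU.zpow_mem hxE k)) he
          exact (Subgroup.mem_normalizer_iff.1 (hnorm ⟨k, rfl⟩) e).1 he
        rw [show (4 : ℕ) = 2 * 2 from rfl, pow_mul, pow_two, pow_two]
        exact EU_sq hsq2
      rintro ⟨⟨y, hyN⟩, hy⟩
      exact ⟨2, Subtype.ext (Subtype.ext (hcard y hy))⟩
    obtain ⟨Q, hQ⟩ := hLp.exists_le_sylow
    have hPN : IsPGroup 2 ↥(PP.subgroupOf NU) :=
      isPGroup_PP.comap_of_injective NU.subtype NU.subtype_injective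
    have hPidx : ¬ 2 ∣ (PP.subgroupOf NU).index := by
      have h := (PP.subgroupOf NU).card_mul_index
      rw [Nat.card_congr (Subgroup.subgroupOfEquivOfLe PP_le_NU).toEquiv, card_PP, card_NU] at h
      omega
    obtain ⟨g₀, hg₀⟩ := MulAction.exists_smul_eq ↥NU Q (hPN.toSylow hPidx)
    obtain ⟨g, hgπ⟩ := K.surj (g₀ : PU)
    have hgN : g ∈ K.N := by show K.π g ∈ NU; rw [hgπ]; exact g₀.2
    have hxQ : (⟨K.π x, hx⟩ : ↥NU) ∈ (Q : Subgroup ↥NU) :=
      hQ (Subgroup.mem_sup_left (Subgroup.mem_zpowers _))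
    have hin : g₀ * ⟨K.π x, hx⟩ * g₀⁻¹ ∈ ((g₀ • Q : Sylow 2 ↥NU) : Subgroup ↥NU) := by
      rw [Sylow.coe_subgroup_smul]; exact ⟨_, hxQ, rfl⟩
    rw [hg₀] at hin
    obtain ⟨n, u, hnu⟩ := mem_PP.1 (show K.π g * K.π x * (K.π g)⁻¹ ∈ PP by rw [hgπ]; exact hin)
    have hu : u ≠ 0 := by
      intro e
      apply hxA
      have h1 : g * x * g⁻¹ ∈ K.A := by
        show K.π _ ∈ EU
        rw [map_mul, map_mul, map_inv, ← hnu, e, utS_zero, lU_one, mul_one]; exact eU_mem n
      have h2 := K.mem_N_iff.1 (K.N.inv_mem hgN) _ h1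
      rwa [show g⁻¹ * (g * x * g⁻¹) * g⁻¹⁻¹ = x by group] at h2
    have hu2 : (ut u).mul (ut u) = M3.one := by
      have h1 : (eU n * lU (utS u)) * (eU n * lU (utS u)) ∈ EU := by
        rw [hnu, show K.π g * K.π x * (K.π g)⁻¹ * (K.π g * K.π x * (K.π g)⁻¹) =
          K.π g * (K.π x * K.π x) * (K.π g)⁻¹ by group]
        exact (Subgroup.mem_normalizer_iff.1 hgN _).1 hxE
      rw [← el_split, ← map_mul, sel6_mul, utS_mul, el_split] at h1
      obtain ⟨m, hm'⟩ := mem_EU.1 h1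
      have h2 : qh (sel6 m (utS 0)) = qh (sel6 (fxor n (fact (utS u) n)) (utS (utMul u u))) := by
        rw [el_split, el_split, ← hm', utS_zero, lU_one, mul_one]
      have h3 := sel6_inj (qh_inj_PT ⟨(m, 0), rfl⟩ ⟨(_, utMul u u), rfl⟩ h2)
      rw [← (ut_mul u u).2]
      exact (congrArg Subtype.val h3.2).symm.trans (congrArg Subtype.val utS_zero)
    obtain ⟨A₀, hA₀, hAu⟩ := cands_ok u (fun e => hu (Fin.ext e)) hu2
    set AS : S3 := ⟨A₀, cands_det A₀ hA₀⟩
    obtain ⟨h, hhN, hhπ⟩ := K.exists_N_lift AS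
    refine ⟨h * g, K.N.mul_mem hhN hgN, fact AS n, ?_⟩
    have e2 : lU AS * lU (utS u) * (lU AS)⁻¹ = lU u0S := by
      rw [mul_inv_eq_iff_eq_mul, lU_mul, lU_mul]
      exact congrArg lU (Subtype.ext hAu)
    rw [show h * g * x * (h * g)⁻¹ = h * (g * x * g⁻¹) * h⁻¹ by group, map_mul, map_mul, map_inv,
      hhπ, map_mul, map_mul, map_inv, ← hnu,
      show lU AS * (eU n * lU (utS u)) * (lU AS)⁻¹ =
        (lU AS * eU n * (lU AS)⁻¹) * (lU AS * lU (utS u) * (lU AS)⁻¹) by group, lU_conj, e2]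
  obtain ⟨n, hn⟩ := hgx
  obtain ⟨r, hr⟩ := K.surj (lU u0S)
  have hsame : ∀ a ∈ K.A, g * x * g⁻¹ * a * (g * x * g⁻¹)⁻¹ = r * a * r⁻¹ ∨ False := by
    intro a ha
    left
    have he : (g * x * g⁻¹) * r⁻¹ ∈ K.A := by
      show K.π _ ∈ EU
      rw [map_mul, hn, map_inv, hr, mul_inv_cancel_right]; exact eU_mem n
    have hrN : r ∈ K.N := by show K.π r ∈ NU; rw [hr]; exact lU_mem_NU _
    have hc := K.elem_A.1 _ he _ (K.mem_N_iff.1 hrN a ha)
    rw [show g * x * g⁻¹ * a * (g * x * g⁻¹)⁻¹ =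
      g * x * g⁻¹ * r⁻¹ * (r * a * r⁻¹) * (g * x * g⁻¹ * r⁻¹)⁻¹ by group, hc, mul_inv_cancel_right]
  -- fixed points of the standard involution
  set Fr := K.A ⊓ Subgroup.centralizer ({r} : Set C)
  have hr2 : ∀ c, r * r * c = c * (r * r) := by
    intro c
    have : K.π (r * r) = 1 := by
      rw [map_mul, hr, lU_mul, show s3mul u0S u0S = s3one from Subtype.ext (by decide +kernel), lU_one]
    rcases (K.hker _).1 this with e | e <;> rw [e]
    · rw [one_mul, mul_one]
    · exact (K.hdc c).eq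
  obtain ⟨s, hs⟩ := K.surj t3
  have hrA : s⁻¹ * r * s ∈ K.A := by
    obtain ⟨k, hk⟩ := (t3_conj_low (n := 0) (by decide)).2
    rw [eU_zero, one_mul] at hk
    show K.π _ ∈ EU
    rw [map_mul, map_mul, map_inv, hs, hr, inv_eq_of_mul_eq_one_right t3_sq, hk]
    exact eU_mem k
  have hlow : ∀ (c : C) (m : Fin 512), (m : ℕ) &&& 484 = 0 → K.π c = eU m → Commute r c := by
    intro c m hm' hc
    have hcA : s⁻¹ * c * s ∈ K.A := by
      show K.π _ ∈ EU
      rw [map_mul, map_mul, map_inv, hs, hc, inv_eq_of_mul_eq_one_right t3_sq, (t3_conj_low hm').1]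
      exact eU_mem m
    have h := K.elem_A.1 _ hrA _ hcA
    have e1 : s⁻¹ * r * s * (s⁻¹ * c * s) = s⁻¹ * (r * c) * s := by group
    have e2 : s⁻¹ * c * s * (s⁻¹ * r * s) = s⁻¹ * (c * r) * s := by group
    rw [e1, e2] at h
    exact mul_left_cancel (mul_right_cancel h)
  let L32 := {m : Fin 512 // (m : ℕ) &&& 484 = 0}
  have hmask : ∀ a b : Fin 512, (a : ℕ) &&& 484 = 0 → (b : ℕ) &&& 484 = 0 →
      (fxor a b : ℕ) &&& 484 = 0 := fun a b ha hb => by
    show (a.1 ^^^ b.1) &&& 484 = 0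
    rw [Nat.and_xor_distrib_right, ha, hb]; rfl
  let low : Subgroup C :=
    { carrier := {c | ∃ m : Fin 512, (m : ℕ) &&& 484 = 0 ∧ K.π c = eU m}
      one_mem' := ⟨0, by decide, by rw [map_one, eU_zero]⟩
      mul_mem' := by
        rintro a b ⟨m, hm1, ha⟩ ⟨m', hm2, hb⟩
        exact ⟨fxor m m', hmask m m' hm1 hm2, by rw [map_mul, ha, hb, eU_mul]⟩
      inv_mem' := by
        rintro a ⟨m, hm1, ha⟩
        exact ⟨m, hm1, by rw [map_inv, ha, inv_eq_of_mul_eq_one_right (EU_sq (eU_mem m))]⟩ }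
  have hlowF : low ≤ Fr := by
    rintro c ⟨m, hm', hc⟩
    exact ⟨by show K.π c ∈ EU; rw [hc]; exact eU_mem m,
      Subgroup.mem_centralizer_singleton_iff.2 (hlow c m hm' hc).eq.symm⟩
  have hlow32 : Nat.card low = 32 := by
    have hmap : low.map K.π = (EU ⊓ low.map K.π) := by
      refine le_antisymm (le_inf ?_ le_rfl) inf_le_right
      rintro _ ⟨c, ⟨m, _, hc⟩, rfl⟩; rw [hc]; exact eU_mem m
    have h1 := K.card_comap (low.map K.π)
    have h2 : (low.map K.π).comap K.π = low := by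
      refine Subgroup.comap_map_eq_self ?_
      intro c hc
      exact ⟨0, by decide, by rw [MonoidHom.mem_ker.1 hc, eU_zero]⟩
    rw [h2] at h1
    have h3 : Nat.card (low.map K.π) = Nat.card L32 := by
      refine (Nat.card_congr (Equiv.ofBijective (fun m : L32 => (⟨eU m.1, by
        obtain ⟨c, hc⟩ := K.surj (eU m.1)
        exact ⟨c, ⟨m.1, m.2, hc⟩, hc⟩⟩ : ↥(low.map K.π))) ⟨?_, ?_⟩)).symm
      · intro a b h; exact Subtype.ext (eU_inj (congrArg Subtype.val h))
      · rintro ⟨_, c, ⟨m, hm', hc⟩, rfl⟩; exact ⟨⟨m, hm'⟩, Subtype.ext hc.symm⟩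
    have h4 : Nat.card L32 = 16 := by
      rw [Nat.card_eq_fintype_card, Fintype.card_subtype]
      decide +kernel
    omega
  -- one more fixed element: two swapped lifts and a fixed one
  obtain ⟨a, ha⟩ := K.surj (eU 4)
  obtain ⟨e, he⟩ := K.surj (eU 1)
  have haA : a ∈ K.A := by show K.π a ∈ EU; rw [ha]; exact eU_mem _
  have hrN : r ∈ K.N := by show K.π r ∈ NU; rw [hr]; exact lU_mem_NU _
  have hb := K.mem_N_iff.1 hrN a haA
  have hre := hlow e 1 (by decide) he
  have hfac : fact u0S 4 = (37 : Fin 512) := Fin.ext (show hact u0 4 = 37 by decide +kernel)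
  set z := a * (r * a * r⁻¹) * e
  have hzπ : K.π z = eU 32 := by
    simp only [z, map_mul, map_inv, ha, he, hr, lU_conj, hfac, eU_mul]
    exact congrArg eU (by decide +kernel)
  have hzF : z ∈ Fr := by
    refine ⟨by show K.π z ∈ EU; rw [hzπ]; exact eU_mem _, Subgroup.mem_centralizer_singleton_iff.2 ?_⟩
    have h1 : r * (r * a * r⁻¹) * r⁻¹ = a := by
      rw [show r * (r * a * r⁻¹) * r⁻¹ = r * r * a * (r * r)⁻¹ by group, hr2, mul_inv_cancel_right]
    have h2 : r * z * r⁻¹ = z := by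
      rw [show r * z * r⁻¹ = (r * a * r⁻¹) * (r * (r * a * r⁻¹) * r⁻¹) * (r * e * r⁻¹) by
        simp only [z]; group, h1, hre.eq, mul_inv_cancel_right, K.elem_A.1 _ hb _ haA]
    rw [mul_inv_eq_iff_eq_mul] at h2
    exact h2.symm
  have hznot : z ∉ low := by
    rintro ⟨m, hm', hc⟩
    rw [hzπ] at hc
    rw [← eU_inj hc] at hm'
    revert hm'
    decide
  have h64 : 64 ≤ Nat.card Fr := by
    have hd1 : Nat.card low ∣ Nat.card Fr := Subgroup.card_dvd_of_le hlowF
    have hne : low ≠ Fr := fun e' => hznot (e' ▸ hzF)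
    have hlt : Nat.card low < Nat.card Fr := by
      rcases lt_or_eq_of_le (Subgroup.card_le_of_le hlowF) with h | h
      · exact h
      · exact absurd (Subgroup.eq_of_le_of_card_ge hlowF h.ge) hne
    obtain ⟨k, hk⟩ := hd1
    rw [hlow32] at hk hlt
    rw [hk] at hlt ⊢
    omega
  -- transport back
  refine h64.trans (le_of_eq ?_)
  refine Nat.card_congr (Equiv.subtypeEquiv (MulAut.conj g⁻¹).toEquiv fun c => ?_)
  simp only [Fr, Subgroup.mem_inf, Subgroup.mem_centralizer_singleton_iff, MulEquiv.toEquiv_eq_coe,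
    EquivLike.coe_coe, MulAut.conj_apply, inv_inv]
  constructor
  · rintro ⟨hc, hcr⟩
    have hc' : g⁻¹ * c * g ∈ K.A := by
      have := K.mem_N_iff.1 (K.N.inv_mem hg) c hc
      rwa [inv_inv] at this
    refine ⟨hc', ?_⟩
    have h := (hsame c hc).resolve_right id
    rw [show r * c * r⁻¹ = c by rw [← hcr]; group] at h
    calc g⁻¹ * c * g * x = g⁻¹ * (g * x * g⁻¹ * c * (g * x * g⁻¹)⁻¹) * (g * x * g⁻¹) * g := by
          rw [h]; group
      _ = x * (g⁻¹ * c * g) := by group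
  · rintro ⟨hc, hcx⟩
    have hc' : c ∈ K.A := by
      have := K.mem_N_iff.1 hg _ hc
      rwa [show g * (g⁻¹ * c * g) * g⁻¹ = c by group] at this
    refine ⟨hc', ?_⟩
    have h := (hsame c hc').resolve_right id
    have e1 : g * x * g⁻¹ * c * (g * x * g⁻¹)⁻¹ = c := by
      calc g * x * g⁻¹ * c * (g * x * g⁻¹)⁻¹ = g * (x * (g⁻¹ * c * g)) * x⁻¹ * g⁻¹ := by group
        _ = g * ((g⁻¹ * c * g) * x) * x⁻¹ * g⁻¹ := by rw [hcx]
        _ = c := by group
    rw [e1] at h
    rw [← mul_inv_eq_iff_eq_mul.1 h.symm]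

/-- An entry of the table of points. -/
def ptN (i : ℕ) : Fin 512 := ⟨pts.getD i 0 % 512, Nat.mod_lt _ (by norm_num)⟩

theorem ptN_eq : ∀ i < 21, ptN i = orbN i ∧ (ptN i : ℕ) = pts.getD i 0 := by decide +kernel

/-- The stabiliser is transitive on ordered pairs of points. -/
theorem pairs {i j i' j' : ℕ} (hi : i < 21) (hj : j < 21) (hij : i ≠ j) (hi' : i' < 21) (hj' : j' < 21)
    (hij' : i' ≠ j') : ∃ g ∈ K.N, K.π g * eU (ptN i) * (K.π g)⁻¹ = eU (ptN i') ∧
      K.π g * eU (ptN j) * (K.π g)⁻¹ = eU (ptN j') := by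
  suffices h : ∀ k < 420, ∃ g ∈ K.N,
      K.π g * eU (ptN (pairT.getD 0 0 % 32)) * (K.π g)⁻¹ = eU (ptN (pairT.getD k 0 % 32)) ∧
        K.π g * eU (ptN (pairT.getD 0 0 / 32 % 32)) * (K.π g)⁻¹ =
          eU (ptN (pairT.getD k 0 / 32 % 32)) by
    have find : ∀ a b, a < 21 → b < 21 → a ≠ b → ∃ k < 420, pairT.getD k 0 % 32 = a ∧
        pairT.getD k 0 / 32 % 32 = b := by
      intro a b ha hb hab
      obtain ⟨v, hv, he⟩ := List.mem_map.1 (pairT_all.2 a ha b hb hab)
      obtain ⟨k, hk, rfl⟩ := List.getElem_of_mem hv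
      refine ⟨k, pairT_all.1 ▸ hk, ?_⟩
      rw [List.getD_eq_getElem _ _ hk]
      omega
    obtain ⟨k, hk, rfl, rfl⟩ := find i j hi hj hij
    obtain ⟨k', hk', rfl, rfl⟩ := find i' j' hi' hj' hij'
    obtain ⟨g, hg, g1, g2⟩ := h k hk
    obtain ⟨g', hg', g1', g2'⟩ := h k' hk'
    refine ⟨g' * g⁻¹, K.N.mul_mem hg' (K.N.inv_mem hg), ?_, ?_⟩
    · rw [← g1, ← g1', map_mul, map_inv]; group
    · rw [← g2, ← g2', map_mul, map_inv]; group
  intro k hk
  induction k using Nat.strong_induction_on with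
  | _ k ih =>
  by_cases h0 : k = 0
  · subst h0
    exact ⟨1, K.N.one_mem, by rw [map_one]; group, by rw [map_one]; group⟩
  obtain ⟨h1, h2, h3, h4⟩ := pairT_ok k hk h0
  obtain ⟨g, hg, e1, e2⟩ := ih _ h1 (h1.trans hk)
  obtain ⟨t, htN, ht⟩ := K.exists_N_lift ⟨_, gens_getD_det h2⟩
  have key : ∀ p q : ℕ, lact (genImg.getD (pairT.getD k 0 / 524288) []) (pts.getD p 0) = pts.getD q 0 →
      fact ⟨_, gens_getD_det h2⟩ (ptN p) = ptN q := by
    intro p q h
    have hlt : ∀ v, pts.getD v 0 < 512 := by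
      intro v
      by_cases hv : v < pts.length
      · rw [List.getD_eq_getElem _ _ hv]; exact pts_lt _ (List.getElem_mem _)
      · rw [List.getD_eq_default _ _ (not_lt.1 hv)]; norm_num
    refine Fin.ext ?_
    show hact _ (pts.getD p 0 % 512) = pts.getD q 0 % 512
    rw [Nat.mod_eq_of_lt (hlt p), Nat.mod_eq_of_lt (hlt q), hact_eq _ (hlt p), ← genImg_getD h2]
    exact h
  refine ⟨t * g, K.N.mul_mem htN hg, ?_, ?_⟩
  · rw [map_mul, show ∀ y, K.π t * K.π g * y * (K.π t * K.π g)⁻¹ = K.π t * (K.π g * y * (K.π g)⁻¹) *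
      (K.π t)⁻¹ from fun y => by group, e1, ht, lU_conj, key _ _ h3]
  · rw [map_mul, show ∀ y, K.π t * K.π g * y * (K.π t * K.π g)⁻¹ = K.π t * (K.π g * y * (K.π g)⁻¹) *
      (K.π t)⁻¹ from fun y => by group, e2, ht, lU_conj, key _ _ h4]

end Cov

end Cfsg.Agent.U62Plane
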