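import Cfsg.Agent.U62Plane.Herm
import Cfsg.Agent.TTLink.UnitaryLift
import Cfsg.Agent.Classical.USimple
import Cfsg.Agent.Linear.Orders

/-!
The stabiliser of a totally isotropic plane in `SU₆(2)`, written in a hyperbolic basis.
-/

set_option autoImplicit false
set_option maxRecDepth 100000
set_option maxHeartbeats 1000000

namespace Cfsg.Agent.U62Plane

open Cfsg.Agent.GFour25
open scoped Matrix

/-- The special unitary group. -/
abbrev SUSix : Subgroup (Matrix.SpecialLinearGroup (Fin 6) F4) := Cfsg.SU 6 F4 2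

/-- The projective special unitary group. -/
abbrev PU : Type := Cfsg.PSU 6 F4 2

/-- The projection. -/
def qh : ↥SUSix →* PU := QuotientGroup.mk' _

/-- The conditions for lying in the special unitary group. -/
def Good (g : B6) : Prop := (B6.std g).det = 1 ∧ g.gram = B6.hyp

theorem preserves_iff (M : Matrix (Fin 6) (Fin 6) F4) :
    (∀ u v, Cfsg.hermForm 6 F4 2 (M *ᵥ u) (M *ᵥ v) = Cfsg.hermForm 6 F4 2 u v) ↔
      (M.map fun a => a * a)ᵀ * M = 1 := by
  set S := M.map fun a => a * a with hS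
  have hsq : ∀ v : Fin 6 → F4, (fun i => (M *ᵥ v) i ^ 2) = S *ᵥ fun j => v j ^ 2 := by
    intro v
    funext i
    simp only [hS, Matrix.mulVec, dotProduct, Matrix.map_apply, Fin.sum_univ_six, pow_two, f4_sq_add]
    ring
  have hH : ∀ u v, Cfsg.hermForm 6 F4 2 u v = u ⬝ᵥ fun j => v j ^ 2 := fun _ _ => rfl
  have hkey : ∀ u v, Cfsg.hermForm 6 F4 2 (M *ᵥ u) (M *ᵥ v) =
      ((Mᵀ * S) *ᵥ fun j => v j ^ 2) ⬝ᵥ u := by
    intro u v
    rw [hH, hsq, ← Matrix.mulVec_mulVec, dotProduct_comm,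
      Matrix.mulVec_transpose, Matrix.dotProduct_mulVec]
  have htr : Sᵀ * M = 1 ↔ Mᵀ * S = 1 := by
    rw [← Matrix.transpose_inj, Matrix.transpose_mul, Matrix.transpose_transpose, Matrix.transpose_one]
  rw [htr]
  constructor
  · intro h
    ext i j
    have h2 := h (Pi.single i 1) (Pi.single j 1)
    have e : (fun k => (Pi.single j (1 : F4) : Fin 6 → F4) k ^ 2) = Pi.single j 1 := by
      funext k; by_cases hk : k = j <;> simp [hk]
    rw [hkey, hH, e, dotProduct_single_one, Matrix.mulVec_single_one, single_one_dotProduct] at h2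
    rw [Matrix.one_apply]
    rw [Pi.single_apply] at h2
    exact h2
  · intro h u v
    rw [hkey, h, Matrix.one_mulVec, hH, dotProduct_comm]

/-- The element of the special unitary group. -/
def mkG (g : B6) (h : Good g) : ↥SUSix :=
  ⟨⟨B6.std g, h.1⟩, (preserves_iff _).2 ((B6.std_gram g).2 h.2)⟩

theorem good_mul {g g' : B6} (h : Good g) (h' : Good g') : Good (g.mul g') := by
  have hp := (mkG g h * mkG g' h').2
  refine ⟨by rw [B6.std_mul, Matrix.det_mul, h.1, h'.1, mul_one], (B6.std_gram _).1 ?_⟩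
  rw [B6.std_mul]
  exact (preserves_iff _).1 hp

theorem good_one : Good B6.one :=
  ⟨by rw [B6.std_one, Matrix.det_one], by decide⟩

theorem mkG_mul {g g' : B6} (h : Good g) (h' : Good g') :
    mkG g h * mkG g' h' = mkG (g.mul g') (good_mul h h') := by
  refine Subtype.ext (Subtype.ext ?_)
  exact (B6.std_mul g g').symm

theorem mkG_one : mkG B6.one good_one = 1 := Subtype.ext (Subtype.ext B6.std_one)

theorem mkG_inj {g g' : B6} {h : Good g} {h' : Good g'} (e : mkG g h = mkG g' h') : g = g' :=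
  B6.std_injective (congrArg (fun x : ↥SUSix => ((x : Matrix.SpecialLinearGroup (Fin 6) F4) :
    Matrix (Fin 6) (Fin 6) F4)) e)

theorem mkG_congr {g g' : B6} (e : g = g') {h : Good g} {h' : Good g'} : mkG g h = mkG g' h' := by
  subst e; rfl

theorem exists_mkG (x : ↥SUSix) : ∃ g h, mkG g h = x := by
  set M : Matrix (Fin 6) (Fin 6) F4 := (x : Matrix.SpecialLinearGroup (Fin 6) F4).1
  refine ⟨B6.ofStd M, ⟨?_, ?_⟩, ?_⟩
  · rw [B6.std_ofStd]; exact (x : Matrix.SpecialLinearGroup (Fin 6) F4).2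
  · refine (B6.std_gram _).1 ?_
    rw [B6.std_ofStd]
    exact (preserves_iff _).1 x.2
  · exact Subtype.ext (Subtype.ext (B6.std_ofStd M))

theorem det_std (g : B6) : (B6.std g).det = g.six.det := by
  rw [B6.std, B6.six_mul, B6.six_mul, Matrix.det_mul, Matrix.det_mul, mul_right_comm,
    ← Matrix.det_mul, ← B6.six_mul, B6.basis_cancel.1, B6.six_one, Matrix.det_one, one_mul]

theorem det_upper {g : B6} (h : g.c = M3.zero) : (B6.std g).det = g.a.det * g.d.det := by
  rw [det_std, B6.six, Matrix.det_reindex_self, h, M3.toM_zero, Matrix.det_fromBlocks_zero₂₁,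
    M3.det_eq, M3.det_eq]

theorem det_one_of_sq {g : B6} (h : g.mul g = B6.one) : (B6.std g).det = 1 := by
  have e := congrArg (fun z => (B6.std z).det) h
  simp only [B6.std_mul, Matrix.det_mul, B6.std_one, Matrix.det_one] at e
  revert e
  generalize (B6.std g).det = x
  revert x
  decide

/-- Upper triangular element. -/
def el (n : ℕ) (a : M3) : B6 := ⟨a, (hm n).mul a.adj.star, M3.zero, a.adj.star⟩

theorem adj_one : M3.one.adj = M3.one := by decide

theorem star_cancel {a : M3} (h : a.det = 1) :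
    a.star.mul a.adj.star = M3.one ∧ a.adj.star.mul a.star = M3.one := by
  constructor
  · rw [← M3.star_mul, (M3.adj_mul_cancel h).1, M3.star_one]
  · rw [← M3.star_mul, (M3.adj_mul_cancel h).2, M3.star_one]

theorem adj_det {a : M3} (h : a.det = 1) : a.adj.det = 1 := by
  have := congrArg M3.det (M3.adj_mul_cancel h).1
  rwa [M3.det_mul, h, mul_one, show M3.one.det = 1 by decide] at this

theorem good_el {n : ℕ} (hn : n < 512) {a : M3} (h : a.det = 1) : Good (el n a) := by
  refine ⟨?_, ?_⟩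
  · rw [det_upper rfl]
    show a.det * a.adj.star.det = 1
    rw [h, M3.det_star, adj_det h, one_mul, one_mul]
  · have hs := star_cancel h
    simp only [B6.gram, el, B6.hyp, M3.star_zero, M3.zero_mul, M3.mul_zero, M3.zero_add, M3.add_zero,
      M3.star_mul, M3.star_star, (hm_hcode_hm ⟨n, hn⟩).2]
    refine B6.ext rfl hs.1 ?_ ?_
    · exact (M3.adj_mul_cancel h).1
    · show (a.adj.mul ((hm n).mul a.adj.star)).add ((a.adj.mul (hm n)).mul a.adj.star) = M3.zero
      rw [M3.mul_assoc, M3.add_self]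

theorem el_mul {n m : ℕ} (hm' : m < 512) {a b : M3} (ha : a.det = 1) :
    (el n a).mul (el m b) = el (n ^^^ hact a m) (a.mul b) := by
  simp only [el, B6.mul, M3.zero_mul, M3.mul_zero, M3.zero_add, M3.add_zero, M3.adj_mul,
    M3.star_mul, hm_xor, hm_hact a hm', M3.add_mul]
  refine B6.ext rfl ?_ rfl rfl
  rw [M3.mul_assoc (a.mul (hm m)) a.star, ← M3.mul_assoc a.star, (star_cancel ha).1, M3.one_mul,
    M3.mul_assoc a, M3.mul_assoc, M3.add_comm]

theorem el_inj {n m : ℕ} (hn : n < 512) (hm' : m < 512) {a b : M3} (ha : a.det = 1)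
    (h : el n a = el m b) : n = m ∧ a = b := by
  obtain ⟨rfl, h2, -, -⟩ := (B6.mk.injEq ..).mp h
  refine ⟨hm_inj hn hm' ?_, rfl⟩
  have := congrArg (fun z => M3.mul z a.star) h2
  simpa only [M3.mul_assoc, (star_cancel ha).2, M3.mul_one] using this

theorem el_zero_one : el 0 M3.one = B6.one := by decide +kernel

/-- Matrices of determinant one. -/
abbrev S3 : Type := {a : M3 // a.det = 1}

/-- The identity matrix. -/
def s3one : S3 := ⟨M3.one, by decide⟩

/-- The product. -/
def s3mul (a b : S3) : S3 := ⟨a.1.mul b.1, by rw [M3.det_mul, a.2, b.2, one_mul]⟩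

/-- The inverse. -/
def s3inv (a : S3) : S3 := ⟨a.1.adj, adj_det a.2⟩

theorem card_S3 : Nat.card S3 = 60480 := by
  have h := Linear.card_SL_mul (F := F4) 3
  rw [card_F4, Fin.prod_univ_three] at h
  simp only [Fin.isValue, Fin.val_zero, Fin.val_one, Fin.val_two] at h
  let e : S3 ≃ Matrix.SpecialLinearGroup (Fin 3) F4 :=
    { toFun := fun a => ⟨a.1.toM, by rw [M3.det_eq]; exact a.2⟩
      invFun := fun m => ⟨M3.ofM m.1, by rw [← M3.det_eq, M3.toM_ofM]; exact m.2⟩
      left_inv := fun a => Subtype.ext (M3.ofM_toM a.1)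
      right_inv := fun m => Subtype.ext (M3.toM_ofM m.1) }
  rw [Nat.card_congr e]
  omega

/-- The element of the plane stabiliser. -/
def sel6 (n : Fin 512) (a : S3) : ↥SUSix := mkG (el n a.1) (good_el n.2 a.2)

/-- The sum of two numbers. -/
def fxor (m n : Fin 512) : Fin 512 := ⟨m.1 ^^^ n.1, Nat.xor_lt_two_pow (n := 9) m.2 n.2⟩

/-- The action. -/
def fact (a : S3) (n : Fin 512) : Fin 512 := ⟨hact a.1 n, hact_lt a.1 n.2⟩

theorem sel6_mul (n m : Fin 512) (a b : S3) :
    sel6 n a * sel6 m b = sel6 (fxor n (fact a m)) (s3mul a b) := by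
  rw [sel6, sel6, mkG_mul]
  exact mkG_congr (el_mul m.2 a.2)

theorem sel6_one : sel6 0 s3one = 1 := by
  rw [← mkG_one]; exact mkG_congr el_zero_one

theorem sel6_inj {n m : Fin 512} {a b : S3} (h : sel6 n a = sel6 m b) : n = m ∧ a = b := by
  obtain ⟨h1, h2⟩ := el_inj n.2 m.2 a.2 (mkG_inj h)
  exact ⟨Fin.ext h1, Subtype.ext h2⟩

theorem fact_fxor (a : S3) (m n : Fin 512) : fact a (fxor m n) = fxor (fact a m) (fact a n) :=
  Fin.ext (hact_xor a.1 m.2 n.2)

theorem fact_mul (a b : S3) (n : Fin 512) : fact (s3mul a b) n = fact a (fact b n) := by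
  refine Fin.ext (hm_inj (hact_lt _ n.2) (hact_lt _ (hact_lt _ n.2)) ?_)
  show hm (hact (a.1.mul b.1) n) = hm (hact a.1 (hact b.1 n))
  rw [hm_hact _ n.2, hm_hact _ (hact_lt _ n.2), hm_hact _ n.2, M3.star_mul]
  simp only [M3.mul_assoc]

theorem fact_one (n : Fin 512) : fact s3one n = n := by
  refine Fin.ext (hm_inj (hact_lt _ n.2) n.2 ?_)
  show hm (hact M3.one n) = _
  rw [hm_hact _ n.2, M3.star_one, M3.one_mul, M3.mul_one]

theorem fact_zero (a : S3) : fact a 0 = 0 := Fin.ext (hact_zero a.1)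

theorem fxor_self (n : Fin 512) : fxor n n = 0 := Fin.ext (Nat.xor_self _)
theorem fxor_zero (n : Fin 512) : fxor n 0 = n := Fin.ext (Nat.xor_zero _)
theorem zero_fxor (n : Fin 512) : fxor 0 n = n := Fin.ext (Nat.zero_xor _)

theorem s3mul_inv (a : S3) : s3mul a (s3inv a) = s3one := Subtype.ext (M3.adj_mul_cancel a.2).2
theorem s3inv_mul (a : S3) : s3mul (s3inv a) a = s3one := Subtype.ext (M3.adj_mul_cancel a.2).1
theorem s3one_mul (a : S3) : s3mul s3one a = a := Subtype.ext (M3.one_mul a.1)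
theorem s3mul_one (a : S3) : s3mul a s3one = a := Subtype.ext (M3.mul_one a.1)

theorem sel6_conj (a : S3) (n : Fin 512) :
    sel6 0 a * sel6 n s3one * (sel6 0 a)⁻¹ = sel6 (fact a n) s3one := by
  rw [mul_inv_eq_iff_eq_mul, sel6_mul, sel6_mul, fact_one, fxor_zero, zero_fxor, s3mul_one, s3one_mul]

theorem sel6_split (n : Fin 512) (a : S3) : sel6 n a = sel6 n s3one * sel6 0 a := by
  rw [sel6_mul, fact_one, fxor_zero, s3one_mul]

/-- An upper triangular unitary element lies in the plane stabiliser. -/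
theorem exists_sel6 {g : B6} (h : Good g) (hc : g.c = M3.zero) : ∃ n a, mkG g h = sel6 n a := by
  have hg := h.2
  simp only [B6.gram, B6.hyp, hc, M3.star_zero, M3.zero_mul, M3.mul_zero, M3.zero_add, M3.add_zero,
    B6.mk.injEq] at hg
  obtain ⟨-, h12, -, h22⟩ := hg
  have hd := h.1
  rw [det_upper hc] at hd
  have h12' := congrArg M3.det h12
  rw [M3.det_mul, M3.det_star, show M3.one.det = 1 by decide] at h12'
  have ha : g.a.det = 1 := by
    revert hd h12'
    generalize g.a.det = x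
    generalize g.d.det = y
    revert x y
    decide
  have hdeq : g.d = g.a.adj.star := by
    have := congrArg (M3.mul g.a.adj.star) h12
    rwa [← M3.mul_assoc, (star_cancel ha).2, M3.one_mul, M3.mul_one] at this
  have hb : (g.b.mul g.a.star).star = g.b.mul g.a.star := by
    rw [hdeq, M3.star_star] at h22
    have h3 := congrArg (fun z => M3.mul g.a (M3.mul z g.a.star)) h22
    simp only [M3.add_mul, M3.mul_add, M3.zero_mul, M3.mul_zero, ← M3.mul_assoc,
      (M3.adj_mul_cancel ha).2, M3.one_mul] at h3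
    rw [M3.mul_assoc (g.a.mul g.b.star), (star_cancel ha).2, M3.mul_one] at h3
    rw [M3.star_mul, M3.star_star]
    have h4 := congrArg (M3.add (g.b.mul g.a.star)) h3
    rwa [← M3.add_assoc, M3.add_self, M3.zero_add, M3.add_zero] at h4
  obtain ⟨hlt, hcode'⟩ := hm_surj hb
  refine ⟨⟨_, hlt⟩, ⟨g.a, ha⟩, mkG_congr ?_⟩
  refine B6.ext rfl ?_ hc hdeq
  show g.b = (hm (hcode (g.b.mul g.a.star))).mul g.a.adj.star
  rw [hcode', M3.mul_assoc, (star_cancel ha).1, M3.mul_one]

/-- The exchange of the last pair of basis vectors. -/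
def sw3 : B6 :=
  ⟨⟨1, 0, 0, 0, 1, 0, 0, 0, 0⟩, ⟨0, 0, 0, 0, 0, 0, 0, 0, 1⟩, ⟨0, 0, 0, 0, 0, 0, 0, 0, 1⟩,
    ⟨1, 0, 0, 0, 1, 0, 0, 0, 0⟩⟩

/-- The exchange of the last two pairs of basis vectors. -/
def sw23 : B6 :=
  ⟨⟨1, 0, 0, 0, 0, 0, 0, 0, 0⟩, ⟨0, 0, 0, 0, 1, 0, 0, 0, 1⟩, ⟨0, 0, 0, 0, 1, 0, 0, 0, 1⟩,
    ⟨1, 0, 0, 0, 0, 0, 0, 0, 0⟩⟩

theorem good_sw3 : Good sw3 := ⟨det_one_of_sq (by decide +kernel), by decide +kernel⟩
theorem good_sw23 : Good sw23 := ⟨det_one_of_sq (by decide +kernel), by decide +kernel⟩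

/-- The two exchanges. -/
def s3x : ↥SUSix := mkG sw3 good_sw3
/-- The exchange of two pairs. -/
def s23x : ↥SUSix := mkG sw23 good_sw23

theorem s3x_sq : s3x * s3x = 1 := by
  rw [s3x, mkG_mul, ← mkG_one]; exact mkG_congr (by decide +kernel)

theorem s23x_sq : s23x * s23x = 1 := by
  rw [s23x, mkG_mul, ← mkG_one]; exact mkG_congr (by decide +kernel)

theorem sw3_conj : ∀ n : Fin 512, (n : ℕ) &&& 484 = 0 →
    (sw3.mul (el n M3.one)).mul sw3 = el n M3.one ∧
      (sw3.mul (el n u0)).mul sw3 = el (n + 32 : ℕ) M3.one := by decide +kernel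

theorem sw23_conj : ∀ u : Fin 16,
    (sw23.mul (el 0 (ut u))).mul sw23 = el (hcode ((sw23.mul (el 0 (ut u))).mul sw23).b) M3.one ∧
      hcode ((sw23.mul (el 0 (ut u))).mul sw23).b < 512 := by decide +kernel

theorem sw3_conj_high : ∀ c : Fin 4,
    (sw3.mul (el 0 (ut (16 * c)))).mul sw3 =
        el (hcode ((sw3.mul (el 0 (ut (16 * c)))).mul sw3).b) M3.one ∧
      hcode ((sw3.mul (el 0 (ut (16 * c)))).mul sw3).b < 512 := by decide +kernel

theorem sw23_high : ∀ c : Fin 4, ((sw23.mul (el 0 (ut (16 * c)))).mul sw23).c = M3.zero := by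
  decide +kernel

end Cfsg.Agent.U62Plane
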