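import Cfsg.Agent.U62Plane.Elem

/-!
`PSU₆(2)`: the elementary abelian group of order `2⁹` of a totally isotropic plane, its normaliser,
a Sylow 2-subgroup, and the conjugates of involutions in it.
-/

set_option autoImplicit false
set_option maxRecDepth 100000
set_option maxHeartbeats 1000000

namespace Cfsg.Agent.U62Plane

open Cfsg.Agent.GFour25

theorem card_PU : Nat.card PU = 9196830720 := by
  have hS : Classical.U.SqField F4 2 := Classical.U.sqField_of_fintype (by rw [card_F4]; norm_num)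
  have h := Classical.U.card_PSU (n := 6) hS (by norm_num)
  rw [Classical.U.card_UG hS] at h
  norm_num [Finset.prod_range_succ] at h
  simp only [PU]
  omega

theorem ker_qh : qh.ker = Subgroup.center ↥SUSix := QuotientGroup.ker_mk' _

theorem qh_surj : Function.Surjective qh := QuotientGroup.mk'_surjective _

theorem card_ker_qh : Nat.card qh.ker = 3 := by
  rw [ker_qh]
  exact (Classical.U.card_center_SU (Classical.U.sqField_of_fintype (by rw [card_F4]; norm_num))
    (by norm_num)).trans (by norm_num)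

theorem ker_cube {z : ↥SUSix} (hz : qh z = 1) : z ^ 3 = 1 :=
  TTLink.UnitarySix.cube_center card_F4 (ker_qh ▸ MonoidHom.mem_ker.2 hz)

/-- A subgroup from a set closed under products in a finite group. -/
def ofMul {G : Type*} [Group G] [Finite G] (s : Set G) (h1 : (1 : G) ∈ s)
    (hm : ∀ x ∈ s, ∀ y ∈ s, x * y ∈ s) : Subgroup G where
  carrier := s
  one_mem' := h1
  mul_mem' := fun ha hb => hm _ ha _ hb
  inv_mem' := by
    intro x hx
    have hp : ∀ k : ℕ, x ^ k ∈ s := fun k => by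
      induction k with
      | zero => rw [pow_zero]; exact h1
      | succ k ih => rw [pow_succ]; exact hm _ ih _ hx
    have e : x ^ (orderOf x - 1) = x⁻¹ := by
      refine eq_inv_of_mul_eq_one_left ?_
      rw [← pow_succ, show orderOf x - 1 + 1 = orderOf x by have := orderOf_pos x; omega, pow_orderOf_eq_one]
    exact e ▸ hp _

/-- The elementary abelian group of the plane. -/
def Et : Subgroup ↥SUSix := ofMul (Set.range fun n => sel6 n s3one) ⟨0, sel6_one⟩ <| by
  rintro _ ⟨n, rfl⟩ _ ⟨m, rfl⟩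
  exact ⟨fxor n m, by simp only [sel6_mul, fact_one, s3one_mul]⟩

/-- The plane stabiliser. -/
def NT : Subgroup ↥SUSix := ofMul (Set.range fun p : Fin 512 × S3 => sel6 p.1 p.2)
    ⟨(0, s3one), sel6_one⟩ <| by
  rintro _ ⟨p, rfl⟩ _ ⟨q, rfl⟩
  exact ⟨(fxor p.1 (fact p.2 q.1), s3mul p.2 q.2), (sel6_mul ..).symm⟩

/-- A unitriangular matrix. -/
def utS (u : Fin 64) : S3 := ⟨ut u, ut_det u⟩

/-- The product of unitriangular matrices. -/
def utMul (u v : Fin 64) : Fin 64 := ⟨utcode ((ut u).mul (ut v)), (ut_mul u v).1⟩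

theorem utS_mul (u v : Fin 64) : s3mul (utS u) (utS v) = utS (utMul u v) :=
  Subtype.ext (ut_mul u v).2.symm

theorem utS_zero : utS 0 = s3one := Subtype.ext (show ut 0 = M3.one by decide)

theorem utS_inj {u v : Fin 64} (h : utS u = utS v) : u = v := by
  have := congrArg utcode (congrArg Subtype.val h)
  exact Fin.ext ((utcode_ut u).symm.trans (this.trans (utcode_ut v)))

/-- A Sylow 2-subgroup of the unitary group. -/
def PT : Subgroup ↥SUSix := ofMul (Set.range fun p : Fin 512 × Fin 64 => sel6 p.1 (utS p.2))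
    ⟨(0, 0), show sel6 0 (utS 0) = 1 by rw [utS_zero, sel6_one]⟩ <| by
  rintro _ ⟨p, rfl⟩ _ ⟨q, rfl⟩
  exact ⟨(fxor p.1 (fact (utS p.2) q.1), utMul p.2 q.2), by simp only [sel6_mul, utS_mul]⟩

theorem card_Et : Nat.card Et = 512 := by
  show Nat.card (Set.range fun n => sel6 n s3one) = 512
  rw [Nat.card_range_of_injective fun a b h => (sel6_inj h).1, Nat.card_eq_fintype_card, Fintype.card_fin]

theorem card_NT : Nat.card NT = 512 * 60480 := by
  show Nat.card (Set.range fun p : Fin 512 × S3 => sel6 p.1 p.2) = _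
  rw [Nat.card_range_of_injective fun a b h => Prod.ext (sel6_inj h).1 (sel6_inj h).2, Nat.card_prod,
    Nat.card_eq_fintype_card, Fintype.card_fin, card_S3]

theorem card_PT : Nat.card PT = 2 ^ 15 := by
  show Nat.card (Set.range fun p : Fin 512 × Fin 64 => sel6 p.1 (utS p.2)) = _
  rw [Nat.card_range_of_injective fun a b h => Prod.ext (sel6_inj h).1 (utS_inj (sel6_inj h).2),
    Nat.card_eq_fintype_card, Fintype.card_prod, Fintype.card_fin, Fintype.card_fin]
  norm_num

theorem Et_le_PT : Et ≤ PT := by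
  rintro _ ⟨n, rfl⟩
  exact ⟨(n, 0), by simp only [utS_zero]⟩

theorem PT_le_NT : PT ≤ NT := by
  rintro _ ⟨p, rfl⟩
  exact ⟨(p.1, utS p.2), rfl⟩

theorem qh_inj_PT : Set.InjOn qh (PT : Set ↥SUSix) := by
  intro x hx y hy h
  have hz : qh (x⁻¹ * y) = 1 := by rw [map_mul, map_inv, h, inv_mul_cancel]
  have h3 := ker_cube hz
  have h2 : orderOf (x⁻¹ * y) ∣ 2 ^ 15 := by
    rw [← card_PT]
    exact PT.orderOf_dvd_natCard (PT.mul_mem (PT.inv_mem hx) hy)
  have h1 : orderOf (x⁻¹ * y) = 1 :=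
    Nat.eq_one_of_dvd_coprimes (by norm_num : Nat.Coprime 3 (2 ^ 15)) (orderOf_dvd_of_pow_eq_one h3) h2
  exact inv_mul_eq_one.1 (orderOf_eq_one_iff.1 h1)

/-- An element of the elementary abelian group. -/
def eU (n : Fin 512) : PU := qh (sel6 n s3one)

/-- An element of the complement. -/
def lU (a : S3) : PU := qh (sel6 0 a)

theorem eU_inj {m n : Fin 512} (h : eU m = eU n) : m = n :=
  (sel6_inj (qh_inj_PT (Et_le_PT ⟨m, rfl⟩) (Et_le_PT ⟨n, rfl⟩) h)).1

theorem eU_mul (m n : Fin 512) : eU m * eU n = eU (fxor m n) := by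
  simp only [eU, ← map_mul, sel6_mul, fact_one, s3one_mul]

theorem eU_zero : eU 0 = 1 := by rw [eU, sel6_one, map_one]

theorem lU_mul (a b : S3) : lU a * lU b = lU (s3mul a b) := by
  simp only [lU, ← map_mul, sel6_mul, fact_zero, fxor_zero]

theorem lU_one : lU s3one = 1 := by rw [lU, sel6_one, map_one]

theorem lU_inv (a : S3) : (lU a)⁻¹ = lU (s3inv a) := by
  refine inv_eq_of_mul_eq_one_right ?_
  rw [lU_mul, s3mul_inv, lU_one]

theorem lU_conj (a : S3) (n : Fin 512) : lU a * eU n * (lU a)⁻¹ = eU (fact a n) := by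
  simp only [lU, eU, ← map_inv, ← map_mul, sel6_conj]

theorem el_split (n : Fin 512) (a : S3) : qh (sel6 n a) = eU n * lU a := by
  rw [sel6_split, map_mul]; rfl

/-- The group of the plane. -/
def EU : Subgroup PU := Et.map qh

theorem mem_EU {x : PU} : x ∈ EU ↔ ∃ n, eU n = x := by
  constructor
  · rintro ⟨_, ⟨n, rfl⟩, rfl⟩; exact ⟨n, rfl⟩
  · rintro ⟨n, rfl⟩; exact ⟨_, ⟨n, rfl⟩, rfl⟩

theorem eU_mem (n : Fin 512) : eU n ∈ EU := mem_EU.2 ⟨n, rfl⟩

theorem EU_comm {x y : PU} (hx : x ∈ EU) (hy : y ∈ EU) : x * y = y * x := by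
  obtain ⟨m, rfl⟩ := mem_EU.1 hx
  obtain ⟨n, rfl⟩ := mem_EU.1 hy
  rw [eU_mul, eU_mul]
  exact congrArg eU (Fin.ext (Nat.xor_comm _ _))

theorem EU_sq {x : PU} (hx : x ∈ EU) : x * x = 1 := by
  obtain ⟨m, rfl⟩ := mem_EU.1 hx
  rw [eU_mul, fxor_self, eU_zero]

theorem card_EU : Nat.card EU = 512 := by
  rw [← card_Et, EU]
  exact Nat.card_image_of_injOn (qh_inj_PT.mono fun x hx => Et_le_PT hx)

/-- The Sylow 2-subgroup. -/
def PP : Subgroup PU := PT.map qh

theorem card_PP : Nat.card PP = 2 ^ 15 := by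
  rw [← card_PT, PP]
  exact Nat.card_image_of_injOn qh_inj_PT

theorem mem_PP {x : PU} : x ∈ PP ↔ ∃ n u, eU n * lU (utS u) = x := by
  constructor
  · rintro ⟨_, ⟨p, rfl⟩, rfl⟩; exact ⟨p.1, p.2, (el_split ..).symm⟩
  · rintro ⟨n, u, rfl⟩; exact ⟨_, ⟨(n, u), rfl⟩, el_split ..⟩

theorem EU_le_PP : EU ≤ PP := Subgroup.map_mono Et_le_PT

theorem index_PP_odd : ¬ 2 ∣ PP.index := by
  have h := PP.card_mul_index
  rw [card_PP, card_PU] at h
  omega

theorem isPGroup_PP : IsPGroup 2 ↥PP := IsPGroup.of_card card_PP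

/-- The Sylow subgroup, bundled. -/
noncomputable def sylPP : Sylow 2 PU :=
  haveI : Fact (Nat.Prime 2) := ⟨Nat.prime_two⟩
  isPGroup_PP.toSylow index_PP_odd

theorem exists_conj_PP {B : Subgroup PU} (hB : IsPGroup 2 ↥B) :
    ∃ g : PU, ∀ x ∈ B, g * x * g⁻¹ ∈ PP := by
  haveI : Fact (Nat.Prime 2) := ⟨Nat.prime_two⟩
  obtain ⟨Q, hQ⟩ := hB.exists_le_sylow
  obtain ⟨g, hg⟩ := MulAction.exists_smul_eq PU Q sylPP
  refine ⟨g, fun x hx => ?_⟩
  have : g * x * g⁻¹ ∈ ((g • Q : Sylow 2 PU) : Subgroup PU) := by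
    rw [Sylow.coe_subgroup_smul]
    exact ⟨x, hQ hx, rfl⟩
  rw [hg] at this
  exact this

/-- The normaliser. -/
def NU : Subgroup PU := Subgroup.normalizer (EU : Set PU)

theorem mem_NU_of_conj {g : PU} (h : ∀ x ∈ EU, g * x * g⁻¹ ∈ EU) : g ∈ NU := by
  have e : EU.map (MulAut.conj g).toMonoidHom = EU := by
    refine Subgroup.eq_of_le_of_card_ge (fun y hy => ?_) ?_
    · obtain ⟨x, hx, rfl⟩ := hy; exact h x hx
    · rw [Subgroup.card_map_of_injective (MulAut.conj g).injective]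
  rw [NU, Subgroup.mem_normalizer_iff]
  intro x
  refine ⟨h x, fun hx => ?_⟩
  rw [← e] at hx
  obtain ⟨y, hy, he⟩ := hx
  obtain rfl : y = x := (MulAut.conj g).injective he
  exact hy

theorem qh_sel6_mem_NU (n : Fin 512) (a : S3) : qh (sel6 n a) ∈ NU := by
  refine mem_NU_of_conj fun x hx => ?_
  obtain ⟨m, rfl⟩ := mem_EU.1 hx
  rw [el_split, show eU n * lU a * eU m * (eU n * lU a)⁻¹ = eU n * (lU a * eU m * (lU a)⁻¹) * (eU n)⁻¹
    by group, lU_conj]
  exact EU.mul_mem (EU.mul_mem (eU_mem n) (eU_mem _)) (EU.inv_mem (eU_mem n))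

theorem comap_NU : NU.comap qh = NT := by
  refine le_antisymm ?_ fun g hg => ?_
  · intro g hg
    obtain ⟨b, hb, rfl⟩ := exists_mkG g
    have h7 := (Subgroup.mem_normalizer_iff.1 hg (eU 7)).1 (eU_mem 7)
    obtain ⟨m, hm7⟩ := mem_EU.1 h7
    set x := mkG b hb
    have hz : qh (x * sel6 7 s3one * x⁻¹ * (sel6 m s3one)⁻¹) = 1 := by
      rw [map_mul, map_inv, map_mul, map_mul, map_inv, mul_inv_eq_one]; exact hm7.symm
    set z := x * sel6 7 s3one * x⁻¹ * (sel6 m s3one)⁻¹ with hzdef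
    have hzc : z ∈ Subgroup.center ↥SUSix := ker_qh ▸ MonoidHom.mem_ker.2 hz
    have hsq : ∀ k : Fin 512, sel6 k s3one * sel6 k s3one = 1 := fun k => by
      rw [sel6_mul, fact_one, fxor_self, s3one_mul, sel6_one]
    have e1 : z * sel6 m s3one = x * sel6 7 s3one * x⁻¹ := by rw [hzdef, inv_mul_cancel_right]
    have hz2 : z * z = 1 := by
      have h2 : (z * sel6 m s3one) * (z * sel6 m s3one) = 1 := by
        rw [e1, show x * sel6 7 s3one * x⁻¹ * (x * sel6 7 s3one * x⁻¹) =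
          x * (sel6 7 s3one * sel6 7 s3one) * x⁻¹ by group, hsq, mul_one, mul_inv_cancel]
      rwa [mul_assoc, ← mul_assoc (sel6 m s3one), Subgroup.mem_center_iff.1 hzc (sel6 m s3one),
        mul_assoc z (sel6 m s3one), hsq, mul_one] at h2
    have hz1 : z = 1 := by
      have h3 := ker_cube hz
      rw [pow_succ, pow_two, hz2, one_mul] at h3
      exact h3
    rw [hz1, one_mul] at e1
    have e2 : x * sel6 7 s3one = sel6 m s3one * x := by rw [e1]; group
    rw [sel6, sel6, mkG_mul, mkG_mul] at e2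
    have e3 := congrArg B6.d (mkG_inj e2)
    simp only [B6.mul, el, s3one, M3.zero_mul, adj_one, M3.star_one, M3.zero_add, M3.one_mul,
      M3.mul_one, show hm ((7 : Fin 512) : ℕ) = M3.one by decide +kernel] at e3
    have hc : b.c = M3.zero := by
      have := congrArg (fun y => M3.add y b.d) e3
      simpa only [M3.add_assoc, M3.add_self, M3.add_zero] using this
    obtain ⟨n, a, e⟩ := exists_sel6 hb hc
    exact ⟨(n, a), e.symm⟩
  · obtain ⟨p, rfl⟩ := hg
    exact qh_sel6_mem_NU p.1 p.2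

theorem exists_of_mem_NU {x : PU} (hx : x ∈ NU) : ∃ n a, eU n * lU a = x := by
  obtain ⟨g, rfl⟩ := qh_surj x
  have : g ∈ NU.comap qh := hx
  rw [comap_NU] at this
  obtain ⟨p, rfl⟩ := this
  exact ⟨p.1, p.2, (el_split ..).symm⟩

theorem lU_mem_NU (a : S3) : lU a ∈ NU := qh_sel6_mem_NU 0 a

theorem EU_le_NU : EU ≤ NU := Subgroup.le_normalizer

theorem PP_le_NU : PP ≤ NU := by
  rintro _ ⟨x, hx, rfl⟩
  obtain ⟨p, rfl⟩ := PT_le_NT hx
  exact qh_sel6_mem_NU p.1 p.2

theorem card_NU : Nat.card NU = 10321920 := by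
  have h1 : (NU.comap qh).index = NU.index := NU.index_comap_of_surjective qh_surj
  have h2 := (NU.comap qh).card_mul_index
  have h3 := NU.card_mul_index
  have h4 := Subgroup.card_eq_card_quotient_mul_card_subgroup qh.ker
  have h5 : Nat.card (↥SUSix ⧸ qh.ker) = Nat.card PU :=
    Nat.card_congr (QuotientGroup.quotientKerEquivOfSurjective qh qh_surj).toEquiv
  rw [h5, card_ker_qh, card_PU] at h4
  rw [h1, comap_NU, card_NT, h4] at h2
  rw [card_PU] at h3
  have h6 : Nat.card NU * NU.index * 3 = 512 * 60480 * NU.index := by rw [h3, h2]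
  have hi : 0 < NU.index := Nat.pos_of_ne_zero Subgroup.index_ne_zero_of_finite
  have h7 : Nat.card NU * 3 = 512 * 60480 :=
    Nat.eq_of_mul_eq_mul_right hi (by rw [← h6]; ring)
  omega

/-- A scalar matrix commutes with all. -/
theorem scalar_comm (μ : F4) (x : M3) :
    (⟨μ, 0, 0, 0, μ, 0, 0, 0, μ⟩ : M3).mul x = x.mul ⟨μ, 0, 0, 0, μ, 0, 0, 0, μ⟩ := by
  ext <;> simp [M3.mul] <;> ring

theorem centralizer_EU {x : PU} (hx : ∀ y ∈ EU, x * y = y * x) : x ∈ EU := by
  have hN : x ∈ NU := mem_NU_of_conj fun y hy => by rw [hx y hy, mul_inv_cancel_right]; exact hy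
  obtain ⟨n, a, rfl⟩ := exists_of_mem_NU hN
  have hfix : ∀ m, fact a m = m := by
    intro m
    have h := hx _ (eU_mem m)
    rw [mul_assoc, show lU a * eU m = eU (fact a m) * lU a by rw [← lU_conj]; group, ← mul_assoc,
      ← mul_assoc (eU m), EU_comm (eU_mem m) (eU_mem n)] at h
    exact eU_inj (mul_left_cancel (mul_right_cancel h))
  have hk : ∀ m : Fin 512, a.1.mul (hm m) = (hm m).mul a.1.adj.star := by
    intro m
    have h := hm_hact a.1 m.2
    rw [show hact a.1 m = (m : ℕ) from congrArg Fin.val (hfix m)] at h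
    conv_rhs => rw [h]
    rw [M3.mul_assoc (a.1.mul (hm m)), (star_cancel a.2).1, M3.mul_one]
  have h7 := hk 7
  rw [show hm ((7 : Fin 512) : ℕ) = M3.one by decide +kernel, M3.mul_one, M3.one_mul] at h7
  obtain ⟨v, hv⟩ : ∃ v : F4, a.1 = ⟨v, 0, 0, 0, v, 0, 0, 0, v⟩ := by
    have h1 := hk 1
    have h2 := hk 2
    have h3 := hk 8
    have h4 := hk 128
    rw [← h7] at h1 h2 h3 h4
    rw [show hm ((1 : Fin 512) : ℕ) = ⟨1, 0, 0, 0, 0, 0, 0, 0, 0⟩ by decide +kernel] at h1
    rw [show hm ((2 : Fin 512) : ℕ) = ⟨0, 0, 0, 0, 1, 0, 0, 0, 0⟩ by decide +kernel] at h2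
    rw [show hm ((8 : Fin 512) : ℕ) = ⟨0, 1, 0, 1, 0, 0, 0, 0, 0⟩ by decide +kernel] at h3
    rw [show hm ((128 : Fin 512) : ℕ) = ⟨0, 0, 0, 0, 0, 1, 0, 1, 0⟩ by decide +kernel] at h4
    refine ⟨a.1.a00, ?_⟩
    simp only [M3.mul, M3.ext_iff, mul_one, mul_zero, one_mul, zero_mul, add_zero, zero_add] at h1 h2 h3 h4
    ext <;> grind
  have hc : sel6 0 a ∈ Subgroup.center ↥SUSix := by
    rw [Subgroup.mem_center_iff]
    intro y
    obtain ⟨g, hg, rfl⟩ := exists_mkG y
    rw [sel6, mkG_mul, mkG_mul]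
    refine mkG_congr ?_
    simp only [el, B6.mul, Fin.val_zero, hm_zero, M3.zero_mul, M3.mul_zero, M3.add_zero, M3.zero_add]
    rw [← h7, hv]
    exact B6.ext (scalar_comm _ _).symm (scalar_comm _ _).symm (scalar_comm _ _).symm
      (scalar_comm _ _).symm
  have : lU a = 1 := MonoidHom.mem_ker.1 (by rw [ker_qh]; exact hc)
  rw [this, mul_one]
  exact eU_mem n

theorem list_card_bound {s : Finset (Fin 64)} {l : List ℕ} (h : ∀ v ∈ s, (v : ℕ) ∈ l) :
    s.card ≤ l.length := by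
  classical
  calc s.card = (s.image fun v : Fin 64 => (v : ℕ)).card :=
        (Finset.card_image_of_injective _ Fin.val_injective).symm
    _ ≤ l.toFinset.card := Finset.card_le_card fun x hx => by
        obtain ⟨v, hv, rfl⟩ := Finset.mem_image.1 hx
        exact List.mem_toFinset.2 (h v hv)
    _ ≤ l.length := List.toFinset_card_le l

/-- An elementary abelian subgroup of the Sylow subgroup of order at least `2⁹` lies in `EU`. -/
theorem le_EU {B : Subgroup PU} (hBP : B ≤ PP) (hc : ∀ x ∈ B, ∀ y ∈ B, x * y = y * x)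
    (hsq : ∀ x ∈ B, x * x = 1) (hcard : 512 ≤ Nat.card B) : B ≤ EU := by
  classical
  set S : Finset (Fin 512 × Fin 64) :=
    Finset.univ.filter fun p => eU p.1 * lU (utS p.2) ∈ B with hS
  have hinj : ∀ p q : Fin 512 × Fin 64, eU p.1 * lU (utS p.2) = eU q.1 * lU (utS q.2) → p = q := by
    intro p q h
    rw [← el_split, ← el_split] at h
    have h' := sel6_inj (qh_inj_PT ⟨p, rfl⟩ ⟨q, rfl⟩ h)
    exact Prod.ext h'.1 (utS_inj h'.2)
  have hSB : Nat.card B ≤ S.card := by
    rw [← Nat.card_eq_finsetCard]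
    refine Nat.card_le_card_of_injective
      (fun x : B => (⟨Classical.choose (show ∃ p : Fin 512 × Fin 64, eU p.1 * lU (utS p.2) = (x : PU) by
        obtain ⟨n, u, h⟩ := mem_PP.1 (hBP x.2); exact ⟨(n, u), h⟩), by
          rw [hS, Finset.mem_filter]
          refine ⟨Finset.mem_univ _, ?_⟩
          rw [Classical.choose_spec (show ∃ p : Fin 512 × Fin 64,
            eU p.1 * lU (utS p.2) = (x : PU) by
              obtain ⟨n, u, h⟩ := mem_PP.1 (hBP x.2); exact ⟨(n, u), h⟩)]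
          exact x.2⟩ : S)) ?_
    intro x y h
    have hx := Classical.choose_spec (show ∃ p : Fin 512 × Fin 64, eU p.1 * lU (utS p.2) = (x : PU) by
        obtain ⟨n, u, h⟩ := mem_PP.1 (hBP x.2); exact ⟨(n, u), h⟩)
    have hy := Classical.choose_spec (show ∃ p : Fin 512 × Fin 64, eU p.1 * lU (utS p.2) = (y : PU) by
        obtain ⟨n, u, h⟩ := mem_PP.1 (hBP y.2); exact ⟨(n, u), h⟩)
    exact Subtype.ext (hx.symm.trans ((congrArg (fun p : S => eU p.1.1 * lU (utS p.1.2)) h).trans hy))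
  have hmul : ∀ p q : Fin 512 × Fin 64, (eU p.1 * lU (utS p.2)) * (eU q.1 * lU (utS q.2)) =
      eU (fxor p.1 (fact (utS p.2) q.1)) * lU (utS (utMul p.2 q.2)) := by
    intro p q
    rw [← el_split, ← el_split, ← map_mul, sel6_mul, utS_mul, el_split]
  have hcomm : ∀ p ∈ S, ∀ q ∈ S, utMul p.2 q.2 = utMul q.2 p.2 ∧
      (p.2 = 0 → fact (utS q.2) p.1 = p.1) := by
    intro p hp q hq
    simp only [hS, Finset.mem_filter, Finset.mem_univ, true_and] at hp hq
    have h := hc _ hp _ hq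
    rw [hmul, hmul] at h
    have h' := hinj (fxor p.1 (fact (utS p.2) q.1), utMul p.2 q.2)
      (fxor q.1 (fact (utS q.2) p.1), utMul q.2 p.2) h
    simp only [Prod.mk.injEq] at h'
    refine ⟨h'.2, fun e => ?_⟩
    have h1 := h'.1
    rw [e, utS_zero, fact_one] at h1
    refine Fin.ext ?_
    have h2 := congrArg (fun z : Fin 512 => q.1.1 ^^^ z.1) h1
    simp only [fxor, ← Nat.xor_assoc, Nat.xor_self, Nat.zero_xor] at h2
    rw [← h2, Nat.xor_comm q.1.1, Nat.xor_assoc, Nat.xor_self, Nat.xor_zero]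
  have hone : ∀ p ∈ S, utMul p.2 p.2 = 0 := by
    intro p hp
    simp only [hS, Finset.mem_filter, Finset.mem_univ, true_and] at hp
    have h := hsq _ hp
    rw [hmul, show (1 : PU) = eU 0 * lU (utS 0) by rw [eU_zero, utS_zero, lU_one, one_mul]] at h
    exact congrArg Prod.snd (hinj (fxor p.1 (fact (utS p.2) p.1), utMul p.2 p.2) (0, 0) h)
  have hut : ∀ u v : Fin 64, utMul u v = utMul v u → (ut u).mul (ut v) = (ut v).mul (ut u) := by
    intro u v h
    rw [← (ut_mul u v).2, ← (ut_mul v u).2]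
    exact congrArg (fun z : Fin 64 => ut z) h
  have hut1 : ∀ u : Fin 64, utMul u u = 0 → (ut u).mul (ut u) = M3.one := by
    intro u h
    rw [← (ut_mul u u).2]
    exact (congrArg (fun z : Fin 64 => ut z) h).trans (congrArg Subtype.val utS_zero)
  set X := S.image Prod.snd with hX
  set K := S.filter fun p => p.2 = 0 with hK
  have hfib : S.card ≤ K.card * X.card := by
    refine Finset.card_le_mul_card_image S K.card fun u hu => ?_
    obtain ⟨q, hq, hqu⟩ := Finset.mem_image.1 hu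
    refine Finset.card_le_card_of_injOn (fun p => (fxor p.1 (fact (utS p.2) q.1), utMul p.2 q.2)) ?_ ?_
    · intro p hp
      simp only [Finset.coe_filter, Set.mem_setOf_eq] at hp
      simp only [hK, Finset.coe_filter, Set.mem_setOf_eq]
      refine ⟨?_, by rw [hp.2, ← hqu]; exact hone q hq⟩
      have h1 := hp.1
      simp only [hS, Finset.mem_filter, Finset.mem_univ, true_and] at h1 hq ⊢
      rw [← hmul]
      exact B.mul_mem h1 hq
    · intro p hp p' hp' h
      simp only [Finset.coe_filter, Set.mem_setOf_eq] at hp hp'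
      simp only [Prod.mk.injEq] at h
      refine Prod.ext ?_ (hp.2.trans hp'.2.symm)
      have h1 := h.1
      rw [hp.2, hp'.2] at h1
      refine Fin.ext ?_
      have h2 := congrArg (fun z : Fin 512 => z.1 ^^^ (fact (utS u) q.1).1) h1
      simpa only [fxor, Nat.xor_assoc, Nat.xor_self, Nat.xor_zero] using h2
  have hKfix : ∀ v ∈ X, (v : ℕ) ≠ 0 → ∀ p ∈ K, (p.1 : ℕ) ∈ fixT.getD v [] := by
    intro v hv hv0 p hp
    obtain ⟨q, hq, rfl⟩ := Finset.mem_image.1 hv
    rw [hK, Finset.mem_filter] at hp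
    have hfix := (hcomm p hp.1 q hq).2 hp.2
    rw [← (fixT_eq q.2 hv0 (hut1 _ (hone q hq))).1, List.mem_filter]
    refine ⟨List.mem_range.2 p.1.2, beq_iff_eq.2 ?_⟩
    have himg : utImg.getD q.2 [] = imgs (ut q.2) := by
      rw [← utImg_eq]
      simp
    rw [himg, ← hact_eq _ p.1.2]
    exact congrArg Fin.val hfix
  have hKcard : ∀ l : List ℕ, (∀ p ∈ K, (p.1 : ℕ) ∈ l) → K.card ≤ l.length := by
    intro l hl
    refine le_trans (Finset.card_le_card_of_injOn (fun p => (p.1 : ℕ))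
      (fun p hp => List.mem_toFinset.2 (hl p hp)) ?_) (List.toFinset_card_le l)
    intro p hp q hq h
    simp only [hK, Finset.coe_filter, Set.mem_setOf_eq] at hp hq
    exact Prod.ext (Fin.ext h) (hp.2.trans hq.2.symm)
  by_cases hall : ∀ v ∈ X, v = 0
  · intro x hx
    obtain ⟨n, u, h⟩ := mem_PP.1 (hBP hx)
    have hu : u = 0 := hall u (Finset.mem_image.2 ⟨(n, u), by
      simp only [hS, Finset.mem_filter, Finset.mem_univ, true_and, h]; exact hx, rfl⟩)
    rw [← h, hu, utS_zero, lU_one, mul_one]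
    exact eU_mem n
  exfalso
  push Not at hall
  obtain ⟨v₀, hv₀, hv₀0⟩ := hall
  have inv_of : ∀ v ∈ X, (ut v).mul (ut v) = M3.one := fun v hv => by
    obtain ⟨q, hq, rfl⟩ := Finset.mem_image.1 hv
    exact hut1 _ (hone q hq)
  have com_of : ∀ u ∈ X, ∀ v ∈ X, (ut u).mul (ut v) = (ut v).mul (ut u) := fun u hu v hv => by
    obtain ⟨p, hp, rfl⟩ := Finset.mem_image.1 hu
    obtain ⟨q, hq, rfl⟩ := Finset.mem_image.1 hv
    exact hut _ _ (hcomm p hp q hq).1
  have hv₀' : (v₀ : ℕ) ≠ 0 := fun e => hv₀0 (Fin.ext e)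
  have h32 : K.card ≤ 32 :=
    (hKcard _ (hKfix v₀ hv₀ hv₀')).trans (fixT_eq v₀ hv₀' (inv_of v₀ hv₀)).2
  by_cases hcen : ∀ v ∈ X, (v : ℕ) ∈ central
  · have : X.card ≤ 4 := list_card_bound (l := central) hcen
    have : K.card * X.card ≤ 32 * 4 := Nat.mul_le_mul h32 this
    omega
  push Not at hcen
  obtain ⟨u, hu, hucen⟩ := hcen
  have hu0 : (u : ℕ) ≠ 0 := fun e => hucen (by rw [e]; decide)
  have hX16 : X.card ≤ 16 := by
    have h := list_card_bound (s := X.erase 0)
      (l := (List.range 64).filter fun v => decide (v ≠ 0 ∧ (ut v).mul (ut v) = M3.one ∧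
        (ut u).mul (ut v) = (ut v).mul (ut u))) fun v hv => by
      rw [Finset.mem_erase] at hv
      exact List.mem_filter.2 ⟨List.mem_range.2 v.2,
        decide_eq_true ⟨fun e => hv.1 (Fin.ext e), inv_of v hv.2, com_of u hu v hv.2⟩⟩
    have := fix_pairs u hucen (inv_of u hu)
    have := Finset.pred_card_le_card_erase (a := (0 : Fin 64)) (s := X)
    omega
  by_cases hsmall : ∀ v ∈ X, v = 0 ∨ v = u
  · have : X.card ≤ 2 := by
      refine (Finset.card_le_card (t := {0, u}) fun v hv => ?_).trans Finset.card_le_two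
      simpa using hsmall v hv
    have : K.card * X.card ≤ 32 * 2 := Nat.mul_le_mul h32 this
    omega
  push Not at hsmall
  obtain ⟨v, hv, hvne0, hvu⟩ := hsmall
  have hv0 : (v : ℕ) ≠ 0 := fun e => hvne0 (Fin.ext e)
  have h16 : K.card ≤ 16 := by
    refine (hKcard _ fun p hp => List.mem_filter.2 ⟨hKfix u hu hu0 p hp, ?_⟩).trans
      (fix_meet u v hucen hv0 (Ne.symm hvu) (inv_of u hu) (inv_of v hv) (com_of u hu v hv))
    simpa using hKfix v hv hv0 p hp
  have : K.card * X.card ≤ 16 * 16 := Nat.mul_le_mul h16 hX16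
  omega

/-- The conjugates of the exchanges in the projective group. -/
def t3 : PU := qh s3x
/-- The exchange of two pairs. -/
def t23 : PU := qh s23x

theorem t3_sq : t3 * t3 = 1 := by rw [t3, ← map_mul, s3x_sq, map_one]
theorem t23_sq : t23 * t23 = 1 := by rw [t23, ← map_mul, s23x_sq, map_one]

/-- The transvection of the complement. -/
def u0S : S3 := ⟨u0, by decide⟩

theorem sw_conj {g : B6} (hg : Good g) (hgg : g.mul g = B6.one) (h : B6) (hh : Good h) {k : B6}
    (hk : Good k) (e : (g.mul h).mul g = k) :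
    qh (mkG g hg) * qh (mkG h hh) * qh (mkG g hg) = qh (mkG k hk) := by
  rw [← map_mul, ← map_mul, mkG_mul, mkG_mul]
  exact congrArg qh (mkG_congr e)

theorem t3_conj_low {n : Fin 512} (h : (n : ℕ) &&& 484 = 0) :
    t3 * eU n * t3 = eU n ∧ ∃ k, t3 * (eU n * lU u0S) * t3 = eU k := by
  obtain ⟨h1, h2⟩ := sw3_conj n h
  refine ⟨sw_conj good_sw3 (by decide +kernel) _ _ _ h1, ?_⟩
  have hlt : (n : ℕ) + 32 < 512 := by
    have : ∀ n : Fin 512, (n : ℕ) &&& 484 = 0 → (n : ℕ) + 32 < 512 := by decide +kernel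
    exact this n h
  exact ⟨⟨_, hlt⟩, by rw [← el_split]; exact sw_conj good_sw3 (by decide +kernel) _ _ _ h2⟩

theorem t23_conj_low (u : Fin 16) : ∃ k, t23 * lU (utS ⟨u, by omega⟩) * t23 = eU k := by
  obtain ⟨h1, h2⟩ := sw23_conj u
  exact ⟨⟨_, h2⟩, sw_conj good_sw23 (by decide +kernel) _ _ _ h1⟩

/-- A unitriangular element of the last root group. -/
def high (c : Fin 4) : Fin 64 := ⟨16 * c, by omega⟩

theorem t3_conj_high (c : Fin 4) : ∃ k, t3 * lU (utS (high c)) * t3 = eU k := by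
  obtain ⟨h1, h2⟩ := sw3_conj_high c
  exact ⟨⟨_, h2⟩, sw_conj good_sw3 (by decide +kernel) _ _ _ h1⟩

theorem t23_conj_high (c : Fin 4) : t23 * lU (utS (high c)) * t23 ∈ NU := by
  have hg := good_mul (good_mul good_sw23 (good_el (n := 0) (by norm_num) (utS (high c)).2)) good_sw23
  obtain ⟨n, a, e⟩ := exists_sel6 hg (sw23_high c)
  rw [show t23 * lU (utS (high c)) * t23 = qh (sel6 n a) from
    (sw_conj good_sw23 (by decide +kernel) _ _ hg rfl).trans (congrArg qh e)]
  exact qh_sel6_mem_NU n a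

theorem utS_split (u : Fin 64) :
    ∃ (a : Fin 16) (c : Fin 4), lU (utS u) = lU (utS ⟨a, by omega⟩) * lU (utS (high c)) := by
  have key : ∀ u : Fin 64, ∃ (a : Fin 16) (c : Fin 4),
      utcode ((ut a).mul (ut (high c))) = u := by decide +kernel
  obtain ⟨a, c, h⟩ := key u
  refine ⟨a, c, ?_⟩
  rw [lU_mul, utS_mul]
  exact congrArg (fun z => lU (utS z)) (Fin.ext h.symm)

/-- Every involution is conjugate into `EU`. -/
theorem exists_conj_EU {y : PU} (hy : y * y = 1) : ∃ g : PU, g * y * g⁻¹ ∈ EU := by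
  haveI : Fact (Nat.Prime 2) := ⟨Nat.prime_two⟩
  have hp : IsPGroup 2 ↥(Subgroup.zpowers y) := by
    rintro ⟨z, k, rfl⟩
    refine ⟨1, Subtype.ext ?_⟩
    show (y ^ k) ^ (2 ^ 1) = 1
    rw [pow_one, ← zpow_natCast, ← zpow_mul, mul_comm, zpow_mul, zpow_natCast, pow_two, hy, one_zpow]
  obtain ⟨g, hg⟩ := exists_conj_PP hp
  obtain ⟨n, u, hnu⟩ := mem_PP.1 (hg y (Subgroup.mem_zpowers y))
  have hy' : (eU n * lU (utS u)) * (eU n * lU (utS u)) = 1 := by
    rw [hnu, show g * y * g⁻¹ * (g * y * g⁻¹) = g * (y * y) * g⁻¹ by group, hy, mul_one, mul_inv_cancel]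
  by_cases hu : u = 0
  · exact ⟨g, by rw [← hnu, hu, utS_zero, lU_one, mul_one]; exact eU_mem n⟩
  have hq : qh (sel6 n (utS u) * sel6 n (utS u)) = qh (sel6 0 (utS 0)) := by
    rw [map_mul, el_split, hy', utS_zero, sel6_one, map_one]
  rw [sel6_mul, utS_mul] at hq
  have he := sel6_inj (qh_inj_PT ⟨(fxor n (fact (utS u) n), utMul u u), rfl⟩ ⟨(0, 0), rfl⟩ hq)
  have hu2 : (ut u).mul (ut u) = M3.one := by
    rw [← (ut_mul u u).2]
    exact (congrArg Subtype.val he.2).trans (congrArg Subtype.val utS_zero)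
  obtain ⟨A, hA, hAu⟩ := cands_ok u (fun e => hu (Fin.ext e)) hu2
  set AS : S3 := ⟨A, cands_det A hA⟩
  have hconj : lU AS * (eU n * lU (utS u)) * (lU AS)⁻¹ = eU (fact AS n) * lU u0S := by
    have e2 : lU AS * lU (utS u) * (lU AS)⁻¹ = lU u0S := by
      rw [mul_inv_eq_iff_eq_mul, lU_mul, lU_mul]
      exact congrArg lU (Subtype.ext hAu)
    rw [show lU AS * (eU n * lU (utS u)) * (lU AS)⁻¹ =
      (lU AS * eU n * (lU AS)⁻¹) * (lU AS * lU (utS u) * (lU AS)⁻¹) by group, lU_conj, e2]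
  set M := fact AS n
  have hM2 : (eU M * lU u0S) * (eU M * lU u0S) = 1 := by
    rw [← hconj, show lU AS * (eU n * lU (utS u)) * (lU AS)⁻¹ *
      (lU AS * (eU n * lU (utS u)) * (lU AS)⁻¹) =
      lU AS * ((eU n * lU (utS u)) * (eU n * lU (utS u))) * (lU AS)⁻¹ by group, hy', mul_one,
      mul_inv_cancel]
  have hu00 : lU u0S * lU u0S = 1 := by
    rw [lU_mul, show s3mul u0S u0S = s3one from Subtype.ext (by decide +kernel), lU_one]
  have hMfix : fact u0S M = M := by
    rw [show eU M * lU u0S * (eU M * lU u0S) =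
      eU M * (lU u0S * eU M * (lU u0S)⁻¹) * (lU u0S * lU u0S) by group, lU_conj, hu00, mul_one,
      eU_mul, ← eU_zero] at hM2
    refine Fin.ext ?_
    have h1 := congrArg (fun z : Fin 512 => M.1 ^^^ z.1) (eU_inj hM2)
    simpa [fxor, ← Nat.xor_assoc] using h1
  obtain ⟨N, hN⟩ : ∃ N : Fin 512, ((M : ℕ) ^^^ N ^^^ hact u0 N) &&& 484 = 0 := by
    have key : ∀ M : Fin 512, lact (utImg.getD 4 []) M = M →
        ((M : ℕ) ^^^ (if (M : ℕ).testBit 5 then 4 else 0) ^^^
          lact (utImg.getD 4 []) (if (M : ℕ).testBit 5 then 4 else 0)) &&& 484 = 0 := by decide +kernel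
    have himg : utImg.getD 4 [] = imgs u0 := by decide +kernel
    refine ⟨⟨if (M : ℕ).testBit 5 then 4 else 0, by split <;> norm_num⟩, ?_⟩
    rw [hact_eq u0 (by split <;> norm_num), ← himg]
    refine key M ?_
    rw [himg, ← hact_eq u0 M.2]
    exact congrArg Fin.val hMfix
  obtain ⟨-, k, hk⟩ := t3_conj_low (n := fxor (fxor M N) (fact u0S N)) hN
  refine ⟨t3 * eU N * lU AS * g, ?_⟩
  have e3 : eU N * (eU M * lU u0S) * (eU N)⁻¹ = eU (fxor (fxor M N) (fact u0S N)) * lU u0S := by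
    rw [inv_eq_of_mul_eq_one_right (EU_sq (eU_mem N)),
      show eU N * (eU M * lU u0S) * eU N =
        eU N * eU M * (lU u0S * eU N * (lU u0S)⁻¹) * lU u0S by group, lU_conj,
      EU_comm (eU_mem N) (eU_mem M), eU_mul, eU_mul]
  rw [show t3 * eU N * lU AS * g * y * (t3 * eU N * lU AS * g)⁻¹ =
      t3 * (eU N * (lU AS * (g * y * g⁻¹) * (lU AS)⁻¹) * (eU N)⁻¹) * t3⁻¹ by group, ← hnu, hconj, e3,
    inv_eq_of_mul_eq_one_right t3_sq, hk]
  exact eU_mem k

end Cfsg.Agent.U62Plane
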