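import Cfsg.Agent.GFour25.Basic
import Cfsg.Agent.TTClass.UnitF4

/-!
`3 × 3` matrices over the field of four elements written out, and `6 × 6` matrices as two by two
blocks of them: unitary matrices in a hyperbolic basis of the standard Hermitian space.
-/

set_option autoImplicit false

namespace Cfsg.Agent.U62Plane

open Cfsg.Agent.GFour25

/-- The generator of the field. -/
def w : F4 := ⟨false, true⟩

/-- The square of the generator. -/
def w2 : F4 := ⟨true, true⟩

theorem f4_sq_sq : ∀ x : F4, (x * x) * (x * x) = x := by decide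
theorem f4_sq_add : ∀ x y : F4, (x + y) * (x + y) = x * x + y * y := by decide
theorem f4_neg : ∀ x : F4, -x = x := by decide
theorem f4_sub (x y : F4) : x - y = x + y := by rw [sub_eq_add_neg, f4_neg]
theorem f4_two : (2 : F4) = 0 := Cfsg.Agent.TTClass.UnitF4.two_eq_zero card_F4

/-- A `3 × 3` matrix. -/
@[ext] structure M3 where
  a00 : F4
  a01 : F4
  a02 : F4
  a10 : F4
  a11 : F4
  a12 : F4
  a20 : F4
  a21 : F4
  a22 : F4
deriving DecidableEq

namespace M3

def one : M3 := ⟨1, 0, 0, 0, 1, 0, 0, 0, 1⟩
def zero : M3 := ⟨0, 0, 0, 0, 0, 0, 0, 0, 0⟩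

def add (x y : M3) : M3 :=
  ⟨x.a00 + y.a00, x.a01 + y.a01, x.a02 + y.a02, x.a10 + y.a10, x.a11 + y.a11, x.a12 + y.a12,
    x.a20 + y.a20, x.a21 + y.a21, x.a22 + y.a22⟩

def mul (x y : M3) : M3 :=
  ⟨x.a00 * y.a00 + x.a01 * y.a10 + x.a02 * y.a20, x.a00 * y.a01 + x.a01 * y.a11 + x.a02 * y.a21,
    x.a00 * y.a02 + x.a01 * y.a12 + x.a02 * y.a22,
    x.a10 * y.a00 + x.a11 * y.a10 + x.a12 * y.a20, x.a10 * y.a01 + x.a11 * y.a11 + x.a12 * y.a21,
    x.a10 * y.a02 + x.a11 * y.a12 + x.a12 * y.a22,
    x.a20 * y.a00 + x.a21 * y.a10 + x.a22 * y.a20, x.a20 * y.a01 + x.a21 * y.a11 + x.a22 * y.a21,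
    x.a20 * y.a02 + x.a21 * y.a12 + x.a22 * y.a22⟩

/-- Conjugate transpose. -/
def star (x : M3) : M3 :=
  ⟨x.a00 * x.a00, x.a10 * x.a10, x.a20 * x.a20, x.a01 * x.a01, x.a11 * x.a11, x.a21 * x.a21,
    x.a02 * x.a02, x.a12 * x.a12, x.a22 * x.a22⟩

def det (x : M3) : F4 :=
  x.a00 * (x.a11 * x.a22 + x.a12 * x.a21) + x.a01 * (x.a10 * x.a22 + x.a12 * x.a20) +
    x.a02 * (x.a10 * x.a21 + x.a11 * x.a20)

/-- The adjugate. -/
def adj (x : M3) : M3 :=
  ⟨x.a11 * x.a22 + x.a12 * x.a21, x.a01 * x.a22 + x.a02 * x.a21, x.a01 * x.a12 + x.a02 * x.a11,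
    x.a10 * x.a22 + x.a12 * x.a20, x.a00 * x.a22 + x.a02 * x.a20, x.a00 * x.a12 + x.a02 * x.a10,
    x.a10 * x.a21 + x.a11 * x.a20, x.a00 * x.a21 + x.a01 * x.a20, x.a00 * x.a11 + x.a01 * x.a10⟩

/-- The matrix. -/
def toM (x : M3) : Matrix (Fin 3) (Fin 3) F4 :=
  !![x.a00, x.a01, x.a02; x.a10, x.a11, x.a12; x.a20, x.a21, x.a22]

/-- The written-out form of a matrix. -/
def ofM (m : Matrix (Fin 3) (Fin 3) F4) : M3 :=
  ⟨m 0 0, m 0 1, m 0 2, m 1 0, m 1 1, m 1 2, m 2 0, m 2 1, m 2 2⟩

theorem toM_ofM (m : Matrix (Fin 3) (Fin 3) F4) : (ofM m).toM = m := by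
  ext i j; fin_cases i <;> fin_cases j <;> rfl

theorem ofM_toM (x : M3) : ofM x.toM = x := rfl

theorem toM_injective : Function.Injective toM :=
  Function.LeftInverse.injective ofM_toM

theorem toM_one : one.toM = 1 := by
  ext i j; fin_cases i <;> fin_cases j <;> rfl

theorem toM_zero : zero.toM = 0 := by
  ext i j; fin_cases i <;> fin_cases j <;> rfl

theorem toM_add (x y : M3) : (add x y).toM = x.toM + y.toM := by
  ext i j; fin_cases i <;> fin_cases j <;> rfl

theorem toM_mul (x y : M3) : (mul x y).toM = x.toM * y.toM := by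
  ext i j
  fin_cases i <;> fin_cases j <;> simp [mul, toM, Matrix.mul_apply, Fin.sum_univ_three]

theorem toM_star (x : M3) : (star x).toM = (x.toM.map fun a => a * a).transpose := by
  ext i j; fin_cases i <;> fin_cases j <;> rfl

theorem det_eq (x : M3) : x.toM.det = det x := by
  simp only [det, toM, Matrix.det_fin_three, Matrix.of_apply, Matrix.cons_val_zero,
    Matrix.cons_val_one, Matrix.cons_val, Fin.isValue, f4_sub]
  linear_combination (0 : F4) * f4_two

theorem mul_assoc (x y z : M3) : mul (mul x y) z = mul x (mul y z) :=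
  toM_injective (by simp only [toM_mul, Matrix.mul_assoc])

theorem one_mul (x : M3) : mul one x = x := toM_injective (by simp [toM_mul, toM_one])
theorem mul_one (x : M3) : mul x one = x := toM_injective (by simp [toM_mul, toM_one])
theorem zero_mul (x : M3) : mul zero x = zero := toM_injective (by simp [toM_mul, toM_zero])
theorem mul_zero (x : M3) : mul x zero = zero := toM_injective (by simp [toM_mul, toM_zero])
theorem add_zero (x : M3) : add x zero = x := toM_injective (by simp [toM_add, toM_zero])
theorem zero_add (x : M3) : add zero x = x := toM_injective (by simp [toM_add, toM_zero])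
theorem add_comm (x y : M3) : add x y = add y x := toM_injective (by simp [toM_add, _root_.add_comm])
theorem add_assoc (x y z : M3) : add (add x y) z = add x (add y z) :=
  toM_injective (by simp [toM_add, _root_.add_assoc])
theorem mul_add (x y z : M3) : mul x (add y z) = add (mul x y) (mul x z) :=
  toM_injective (by simp [toM_mul, toM_add, Matrix.mul_add])
theorem add_mul (x y z : M3) : mul (add x y) z = add (mul x z) (mul y z) :=
  toM_injective (by simp [toM_mul, toM_add, Matrix.add_mul])
theorem add_self (x : M3) : add x x = zero := by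
  ext <;> exact GFour25.add_self _

theorem star_one : star one = one := by decide
theorem star_zero : star zero = zero := by decide
theorem star_star (x : M3) : star (star x) = x := by ext <;> exact f4_sq_sq _
theorem star_add (x y : M3) : star (add x y) = add (star x) (star y) := by
  ext <;> exact f4_sq_add _ _
theorem star_mul (x y : M3) : star (mul x y) = mul (star y) (star x) := by
  ext <;> simp only [star, mul, f4_sq_add] <;> ring

theorem det_mul (x y : M3) : det (mul x y) = det x * det y := by
  rw [← det_eq, toM_mul, Matrix.det_mul, det_eq, det_eq]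

theorem det_star (x : M3) : det (star x) = det x * det x := by
  simp only [det, star, f4_sq_add, mul_add]
  ring_nf
  simp only [f4_two, MulZeroClass.mul_zero, MulZeroClass.zero_mul, _root_.add_zero, _root_.zero_add]

theorem adj_mul_cancel {x : M3} (h : det x = 1) : mul (adj x) x = one ∧ mul x (adj x) = one := by
  rw [det] at h
  constructor <;>
  · ext <;> simp only [mul, adj, one] <;>
      first
        | linear_combination h
        | (ring_nf; simp only [f4_two, MulZeroClass.mul_zero, MulZeroClass.zero_mul, _root_.add_zero, _root_.zero_add])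

theorem adj_mul (x y : M3) : adj (mul x y) = mul (adj y) (adj x) := by
  ext <;> simp only [adj, mul] <;> ring_nf <;>
    simp only [f4_two, MulZeroClass.mul_zero, MulZeroClass.zero_mul, _root_.add_zero, _root_.zero_add]

end M3

/-- A `6 × 6` matrix in blocks. -/
@[ext] structure B6 where
  a : M3
  b : M3
  c : M3
  d : M3
deriving DecidableEq

namespace B6

def one : B6 := ⟨M3.one, M3.zero, M3.zero, M3.one⟩

def mul (x y : B6) : B6 :=
  ⟨(x.a.mul y.a).add (x.b.mul y.c), (x.a.mul y.b).add (x.b.mul y.d),
    (x.c.mul y.a).add (x.d.mul y.c), (x.c.mul y.b).add (x.d.mul y.d)⟩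

/-- The Gram condition for the hyperbolic form. -/
def gram (x : B6) : B6 :=
  ⟨(x.c.star.mul x.a).add (x.a.star.mul x.c), (x.c.star.mul x.b).add (x.a.star.mul x.d),
    (x.d.star.mul x.a).add (x.b.star.mul x.c), (x.d.star.mul x.b).add (x.b.star.mul x.d)⟩

def hyp : B6 := ⟨M3.zero, M3.one, M3.one, M3.zero⟩

def star (x : B6) : B6 := ⟨x.a.star, x.c.star, x.b.star, x.d.star⟩

/-- The matrix in the hyperbolic basis. -/
def six (x : B6) : Matrix (Fin 6) (Fin 6) F4 :=
  Matrix.reindex (finSumFinEquiv (m := 3) (n := 3)) (finSumFinEquiv (m := 3) (n := 3))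
    (Matrix.fromBlocks x.a.toM x.b.toM x.c.toM x.d.toM)

theorem six_mul (x y : B6) : (mul x y).six = x.six * y.six := by
  simp only [six, mul, M3.toM_add, M3.toM_mul, Matrix.reindex_apply, Matrix.submatrix_mul_equiv,
    Matrix.fromBlocks_multiply]

theorem six_one : one.six = 1 := by
  simp only [six, one, M3.toM_one, M3.toM_zero, Matrix.fromBlocks_one, Matrix.reindex_apply,
    Matrix.submatrix_one_equiv]

theorem six_star (x : B6) : (star x).six = (x.six.map fun a => a * a).transpose := by
  simp only [six, star, M3.toM_star, Matrix.reindex_apply, ← Matrix.submatrix_map,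
    Matrix.transpose_submatrix, Matrix.fromBlocks_map, Matrix.fromBlocks_transpose]

theorem six_injective : Function.Injective six := by
  intro x y h
  have h2 := (Matrix.reindex _ _).injective h
  rw [Matrix.fromBlocks_inj] at h2
  exact B6.ext (M3.toM_injective h2.1) (M3.toM_injective h2.2.1) (M3.toM_injective h2.2.2.1)
    (M3.toM_injective h2.2.2.2)

/-- The blocks of a matrix. -/
def ofSix (m : Matrix (Fin 6) (Fin 6) F4) : B6 :=
  let k := (Matrix.reindex (finSumFinEquiv (m := 3) (n := 3)) (finSumFinEquiv (m := 3) (n := 3))).symm m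
  ⟨M3.ofM k.toBlocks₁₁, M3.ofM k.toBlocks₁₂, M3.ofM k.toBlocks₂₁, M3.ofM k.toBlocks₂₂⟩

theorem six_ofSix (m : Matrix (Fin 6) (Fin 6) F4) : (ofSix m).six = m := by
  simp only [six, ofSix, M3.toM_ofM, Matrix.fromBlocks_toBlocks, Equiv.apply_symm_apply]

theorem gram_eq (x : B6) : gram x = mul (star x) (mul hyp x) := by
  simp only [gram, mul, star, hyp, M3.zero_mul, M3.one_mul, M3.zero_add, M3.add_zero]
  ext <;> simp only [M3.add_comm]

theorem mul_assoc (x y z : B6) : mul (mul x y) z = mul x (mul y z) :=
  six_injective (by simp only [six_mul, Matrix.mul_assoc])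

theorem one_mul (x : B6) : mul one x = x := six_injective (by rw [six_mul, six_one, Matrix.one_mul])
theorem mul_one (x : B6) : mul x one = x := six_injective (by rw [six_mul, six_one, Matrix.mul_one])

/-- The hyperbolic basis. -/
def basis : B6 :=
  ofSix !![1, 0, 0, w, 0, 0; 1, 0, 0, w2, 0, 0; 0, 1, 0, 0, w, 0; 0, 1, 0, 0, w2, 0;
    0, 0, 1, 0, 0, w; 0, 0, 1, 0, 0, w2]

/-- The inverse of the change of basis. -/
def basis' : B6 :=
  ofSix !![w2, w, 0, 0, 0, 0; 0, 0, w2, w, 0, 0; 0, 0, 0, 0, w2, w; 1, 1, 0, 0, 0, 0;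
    0, 0, 1, 1, 0, 0; 0, 0, 0, 0, 1, 1]

theorem basis_cancel : mul basis basis' = one ∧ mul basis' basis = one ∧
    mul (star basis) basis = hyp := by decide +kernel

/-- The matrix in the standard basis. -/
def std (x : B6) : Matrix (Fin 6) (Fin 6) F4 := (mul (mul basis x) basis').six

theorem std_mul (x y : B6) : std (mul x y) = std x * std y := by
  rw [std, std, std, ← six_mul]
  congr 1
  simp only [mul_assoc]
  rw [← mul_assoc basis' basis, basis_cancel.2.1, one_mul]

theorem std_one : std one = 1 := by
  rw [std, mul_one, basis_cancel.1, six_one]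

theorem std_injective : Function.Injective std := by
  intro x y h
  have h2 := six_injective h
  have key : ∀ z : B6, mul (mul basis' (mul (mul basis z) basis')) basis = z := fun z => by
    simp only [mul_assoc]
    rw [basis_cancel.2.1, mul_one, ← mul_assoc, basis_cancel.2.1, one_mul]
  rw [← key x, h2, key y]

/-- The blocks in the hyperbolic basis of a matrix. -/
def ofStd (m : Matrix (Fin 6) (Fin 6) F4) : B6 := mul (mul basis' (ofSix m)) basis

theorem std_ofStd (m : Matrix (Fin 6) (Fin 6) F4) : std (ofStd m) = m := by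
  have e : mul (mul basis (ofStd m)) basis' = ofSix m := by
    simp only [ofStd, mul_assoc, basis_cancel.1, mul_one]
    rw [← mul_assoc, basis_cancel.1, one_mul]
  rw [std, e, six_ofSix]

theorem star_mul (x y : B6) : star (mul x y) = mul (star y) (star x) := by
  simp only [star, mul, M3.star_add, M3.star_mul]

theorem star_star (x : B6) : star (star x) = x := by
  simp only [star, M3.star_star]

theorem std_gram (x : B6) :
    ((std x).map fun a => a * a).transpose * std x = 1 ↔ gram x = hyp := by
  have hb : mul (star basis') (mul hyp basis') = one := by decide +kernel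
  rw [std, ← six_star, ← six_mul, ← six_one, six_injective.eq_iff, gram_eq]
  have e : mul (star (mul (mul basis x) basis')) (mul (mul basis x) basis') =
      mul (star basis') (mul (mul (star x) (mul hyp x)) basis') := by
    rw [star_mul, star_mul, ← basis_cancel.2.2]
    simp only [mul_assoc]
  rw [e]
  constructor
  · intro h
    have h2 := congrArg (fun z => mul (star basis) (mul z basis)) h
    simp only [mul_assoc, basis_cancel.2.1, mul_one] at h2
    rw [← mul_assoc (star basis), ← star_mul, basis_cancel.2.1,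
      show star one = one by decide, one_mul, one_mul, basis_cancel.2.2] at h2
    exact h2
  · intro h; rw [h, hb]

end B6

end Cfsg.Agent.U62Plane
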